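import Cfsg.Agent.Lib.SLThreeResidual.EvenElation
import Cfsg.Agent.Lib.FusionHeis.SLThree
import Cfsg.Agent.Lib.Involutions.BrauerSuzuki
import Cfsg.Agent.Lib.TwoGroups.Basic
import Cfsg.Agent.Lib.ReflectionsSpinor.POmegaQuotThms
import Cfsg.Agent.S0205

/-!
# Characteristic two: a root pair, or dihedral Sylow two-subgroups
-/

set_option autoImplicit false
set_option linter.unusedSectionVars false

namespace CfsgLib.SLThreeResidual.Even

open Matrix Cfsg.Geo
open scoped MatrixGroups
open CfsgLib.Geometric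

variable {F : Type*} [Field F]

/-- The inverse transpose with both index sets reversed. -/
def dual : GL (Fin 3) F →* GL (Fin 3) F where
  toFun g :=
    { val := (((g⁻¹ : GL (Fin 3) F) : Matrix (Fin 3) (Fin 3) F)ᵀ).submatrix Fin.revPerm Fin.revPerm
      inv := ((g : Matrix (Fin 3) (Fin 3) F)ᵀ).submatrix Fin.revPerm Fin.revPerm
      val_inv := by
        rw [Matrix.submatrix_mul_equiv, ← transpose_mul, ← Units.val_mul, mul_inv_cancel, Units.val_one,
          transpose_one, submatrix_one_equiv]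
      inv_val := by
        rw [Matrix.submatrix_mul_equiv, ← transpose_mul, ← Units.val_mul, inv_mul_cancel, Units.val_one,
          transpose_one, submatrix_one_equiv] }
  map_one' := by
    apply Units.ext
    simp
  map_mul' g h := by
    apply Units.ext
    simp only [Units.val_mul, Matrix.submatrix_mul_equiv, ← transpose_mul, _root_.mul_inv_rev]

theorem dual_apply (g : GL (Fin 3) F) (i j : Fin 3) :
    (dual g : Matrix (Fin 3) (Fin 3) F) i j =
      ((g⁻¹ : GL (Fin 3) F) : Matrix (Fin 3) (Fin 3) F) j.rev i.rev := rfl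

theorem dual_eq_elM (h2 : (2 : F) = 0) {g : GL (Fin 3) F} {b z : F}
    (hg : (g : Matrix (Fin 3) (Fin 3) F) = !![1, 0, z; 0, 1, b; 0, 0, 1]) :
    (dual g : Matrix (Fin 3) (Fin 3) F) = elM b z := by
  have hinv : g⁻¹ = g := by
    refine inv_eq_of_mul_eq_one_right (Units.ext ?_)
    rw [Units.val_mul, hg, Units.val_one]
    ext i j
    fin_cases i <;> fin_cases j <;> simp [Matrix.mul_apply, Fin.sum_univ_three] <;>
      first | linear_combination z * h2 | linear_combination b * h2
  ext i j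
  rw [dual_apply, hinv, hg]
  fin_cases i <;> fin_cases j <;> simp [elM, Fin.rev]

theorem dual_injective : Function.Injective (dual : GL (Fin 3) F → GL (Fin 3) F) := by
  rw [injective_iff_map_eq_one]
  intro g hg
  rw [← inv_eq_one]
  apply Units.ext
  ext i j
  have := dual_apply g j.rev i.rev
  rw [hg, Fin.rev_rev, Fin.rev_rev] at this
  rw [← this]
  simp [Matrix.one_apply, Fin.rev_inj, eq_comm]

variable [Fintype F]

/-- A two-subgroup of `SL₃` is conjugate to a group of unitriangular matrices. -/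
theorem exists_uni (h2 : (2 : F) = 0) {S : Subgroup (GL (Fin 3) F)} (hS : IsPGroup 2 S)
    (hle : S ≤ specialLinear (Fin 3) F) :
    ∃ B : GL (Fin 3) F, ∀ s ∈ S, ∃ a b z : F,
      ((B * s * B⁻¹ : GL (Fin 3) F) : Matrix (Fin 3) (Fin 3) F) = !![1, a, z; 0, 1, b; 0, 0, 1] := by
  classical
  haveI : CharP F 2 := CharTwo.of_one_ne_zero_of_two_eq_zero one_ne_zero h2
  haveI : Fact (Nat.Prime 2) := ⟨Nat.prime_two⟩
  let ι : SpecialLinearGroup (Fin 3) F →* GL (Fin 3) F := Matrix.SpecialLinearGroup.toGL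
  have hι : Function.Injective ι := fun x y h => Subtype.ext (congrArg Units.val h)
  obtain ⟨T, hT⟩ := (hS.comap_of_injective ι hι).exists_le_sylow
  obtain ⟨f, -, hf⟩ := ClassicalLinear.card_field_eq_pow (F := F) 2
  have hp : IsPGroup 2 (CfsgLib.FusionHeis.utSub F) := IsPGroup.of_card (n := f * 3)
    (by rw [CfsgLib.FusionHeis.card_utSub, hf, pow_mul])
  obtain ⟨R, hR⟩ := hp.exists_le_sylow
  have heq : CfsgLib.FusionHeis.utSub F = R := Subgroup.eq_of_le_of_card_ge hR (by
    rw [CfsgLib.FusionHeis.card_utSub, ClassicalLinear.card_sylow_SL 2 R, Fintype.card_fin])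
  obtain ⟨g, hg⟩ := MulAction.exists_smul_eq (SpecialLinearGroup (Fin 3) F) T R
  refine ⟨ι g, fun s hs => ?_⟩
  have hdet : (s : Matrix (Fin 3) (Fin 3) F).det = 1 := (mem_specialLinear_iff s).1 (hle hs)
  let x : SpecialLinearGroup (Fin 3) F := ⟨(s : Matrix (Fin 3) (Fin 3) F), hdet⟩
  have hx : ι x = s := Units.ext rfl
  have hxT : x ∈ T := hT (show ι x ∈ S by rw [hx]; exact hs)
  have hgx : g * x * g⁻¹ ∈ (R : Subgroup (SpecialLinearGroup (Fin 3) F)) := by
    rw [← hg, Sylow.coe_subgroup_smul]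
    exact ⟨x, hxT, rfl⟩
  rw [← heq] at hgx
  obtain ⟨t, ht⟩ := hgx
  refine ⟨t.1, t.2.1, t.2.2, ?_⟩
  have e : ι g * s * (ι g)⁻¹ = ι (g * x * g⁻¹) := by rw [map_mul, map_mul, map_inv, hx]
  rw [e, ← ht]
  rfl

variable {P : Subgroup (GL (Fin 3) F)}

/-- Two proportional rank one parts give a root pair. -/
theorem rootPair_of_conj (B : GL (Fin 3) F) {x y : GL (Fin 3) F} (hx : x ∈ P) (hy : y ∈ P)
    {v w : Fin 3 → F} {c : F} (hvw : w ⬝ᵥ v = 0) (hv : v ≠ 0) (hw : w ≠ 0) (hc0 : c ≠ 0) (hc1 : c ≠ 1)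
    (ex : ((B * x * B⁻¹ : GL (Fin 3) F) : Matrix (Fin 3) (Fin 3) F) = 1 + vecMulVec v w)
    (ey : ((B * y * B⁻¹ : GL (Fin 3) F) : Matrix (Fin 3) (Fin 3) F) = 1 + c • vecMulVec v w) :
    HasRootPair P := by
  let φ : (Fin 3 → F) →ₗ[F] F := ∑ i, w i • LinearMap.proj i
  have hφ : ∀ z, φ z = w ⬝ᵥ z := fun z => by simp [φ, dotProduct, LinearMap.sum_apply]
  have hφv : φ v = 0 := by rw [hφ, hvw]
  have hcv : (c • φ) v = 0 := by simp [hφv]
  have h1 : B * x * B⁻¹ = tv v φ hφv := by
    refine Units.ext ?_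
    ext i j
    rw [ex, val_tv, hφ, dotProduct_single_one]
    simp [vecMulVec_apply, mul_comm]
  have h3 : B * y * B⁻¹ = tv v (c • φ) hcv := by
    refine Units.ext ?_
    ext i j
    rw [ey, val_tv, LinearMap.smul_apply, hφ, dotProduct_single_one]
    simp [vecMulVec_apply]
    ring
  have k1 : x = B⁻¹ * tv v φ hφv * B⁻¹⁻¹ := by rw [← h1]; group
  have k3 : y = B⁻¹ * tv v (c • φ) hcv * B⁻¹⁻¹ := by rw [← h3]; group
  rw [conj_tv] at k1 k3
  subst k1 k3
  refine ⟨ap B⁻¹ v, φ.comp (apEquiv B⁻¹⁻¹).toLinearMap, by simp [ap_ap_inv, hφv], c,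
    by simp [ap_ap_inv, hφv], ap_ne_zero _ hv, ?_, hc0, hc1, hx, ?_⟩
  · intro h
    apply hw
    funext i
    have := LinearMap.congr_fun h (ap B⁻¹ (Pi.single i 1))
    simpa [ap_ap_inv, hφ, dotProduct_single_one] using this
  · convert hy using 2
    exact LinearMap.ext fun _ => rfl

/-- An orbit is not contained in a hyperplane. -/
theorem exists_ap_ne_zero (hirr : ActsIrreducibly (matrixSet P)) {v : Fin 3 → F} (hv : v ≠ 0)
    {f : (Fin 3 → F) →ₗ[F] F} (hf : f ≠ 0) : ∃ g ∈ P, f (ap g v) ≠ 0 := by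
  by_contra! hc
  let W := Submodule.span F {x : Fin 3 → F | ∃ g ∈ P, ap g v = x}
  have hW : ∀ s ∈ matrixSet P, W.map (Matrix.toLin' s) ≤ W := by
    rintro _ ⟨h, hh, rfl⟩
    rw [Submodule.map_span, Submodule.span_le]
    rintro _ ⟨_, ⟨g, hg, rfl⟩, rfl⟩
    refine Submodule.subset_span ⟨h * g, mul_mem hh hg, ?_⟩
    rw [ap_mul, Matrix.toLin'_apply]
    rfl
  rcases hirr W hW with h | h
  · have : v ∈ W := Submodule.subset_span ⟨1, one_mem P, ap_one v⟩
    rw [h, Submodule.mem_bot] at this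
    exact hv this
  · have hle : W ≤ LinearMap.ker f := Submodule.span_le.2 fun x ⟨g, hg, e⟩ => by
      rw [← e]; exact hc g hg
    rw [h, top_le_iff, LinearMap.ker_eq_top] at hle
    exact hf hle

theorem scalar_eq_one (h2 : (2 : F) = 0) {g : GL (Fin 3) F} (hg : g ∈ scalars (Fin 3) F)
    (hsq : g * g = 1) : g = 1 := by
  obtain ⟨c, hc⟩ := (mem_scalars_iff g).1 hg
  have h := congrArg (fun y : GL (Fin 3) F => (y : Matrix (Fin 3) (Fin 3) F) 0 0) hsq
  simp [hc] at h
  have : ((c : F) - 1) * ((c : F) - 1) = 0 := by linear_combination h + (1 - (c : F)) * h2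
  apply Units.ext
  rw [hc, sub_eq_zero.mp (mul_self_eq_zero.mp this), one_smul, Units.val_one]

/-- Data of a Sylow two-subgroup in triangular form. -/
structure Frame (P : Subgroup (GL (Fin 3) F)) where
  S : Sylow 2 P
  B : GL (Fin 3) F
  tri : ∀ s ∈ S, ∃ a b z : F, ((B * (s : GL (Fin 3) F) * B⁻¹ : GL (Fin 3) F) : Matrix (Fin 3) (Fin 3) F) =
    !![1, a, z; 0, 1, b; 0, 0, 1]

namespace Frame

variable (D : Frame P)

/-- Conjugation into triangular form. -/
def hom : P →* GL (Fin 3) F := (MulAut.conj D.B).toMonoidHom.comp P.subtype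

theorem hom_injective : Function.Injective D.hom :=
  (MulAut.conj D.B).injective.comp Subtype.val_injective

/-- The first super-diagonal entry. -/
def a (s : P) : F := (D.hom s : Matrix (Fin 3) (Fin 3) F) 0 1
/-- The second super-diagonal entry. -/
def b (s : P) : F := (D.hom s : Matrix (Fin 3) (Fin 3) F) 1 2
/-- The corner entry. -/
def z (s : P) : F := (D.hom s : Matrix (Fin 3) (Fin 3) F) 0 2

theorem shape {s : P} (hs : s ∈ D.S) :
    (D.hom s : Matrix (Fin 3) (Fin 3) F) = !![1, D.a s, D.z s; 0, 1, D.b s; 0, 0, 1] := by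
  obtain ⟨a, b, z, h⟩ := D.tri s hs
  have h' : (D.hom s : Matrix (Fin 3) (Fin 3) F) = !![1, a, z; 0, 1, b; 0, 0, 1] := h
  simp [Frame.a, Frame.b, Frame.z, h']

theorem mul_vals {s t : P} (hs : s ∈ D.S) (ht : t ∈ D.S) :
    D.a (s * t) = D.a s + D.a t ∧ D.b (s * t) = D.b s + D.b t ∧
      D.z (s * t) = D.z s + D.z t + D.a s * D.b t := by
  simp only [Frame.a, Frame.b, Frame.z, map_mul, Units.val_mul]
  rw [D.shape hs, D.shape ht]
  simp [Matrix.mul_apply, Fin.sum_univ_three]
  exact ⟨by ring, by ring, by ring⟩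

theorem one_vals : D.a 1 = 0 ∧ D.b 1 = 0 ∧ D.z 1 = 0 := by
  simp [Frame.a, Frame.b, Frame.z]

theorem ext_vals {s t : P} (hs : s ∈ D.S) (ht : t ∈ D.S) (ha : D.a s = D.a t) (hb : D.b s = D.b t)
    (hz : D.z s = D.z t) : s = t :=
  D.hom_injective (Units.ext (by rw [D.shape hs, D.shape ht, ha, hb, hz]))

theorem eq_one {s : P} (hs : s ∈ D.S) (ha : D.a s = 0) (hb : D.b s = 0) (hz : D.z s = 0) : s = 1 :=
  D.ext_vals hs (one_mem _) (ha.trans D.one_vals.1.symm) (hb.trans D.one_vals.2.1.symm)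
    (hz.trans D.one_vals.2.2.symm)

/-- Commuting two-elements can be moved into the chosen Sylow subgroup together. -/
theorem pair {x y : P} (hx : x ^ 4 = 1) (hy : y ^ 4 = 1) (hc : x * y = y * x) :
    ∃ h : P, h * x * h⁻¹ ∈ D.S ∧ h * y * h⁻¹ ∈ D.S := by
  haveI : Fact (Nat.Prime 2) := ⟨Nat.prime_two⟩
  have hz : ∀ w : P, w ^ 4 = 1 → IsPGroup 2 (Subgroup.zpowers w) := fun w hw => by
    obtain ⟨k, -, hk⟩ := (Nat.dvd_prime_pow Nat.prime_two).1
      (show orderOf w ∣ 2 ^ 2 from orderOf_dvd_of_pow_eq_one hw)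
    exact IsPGroup.of_card (n := k) (by rw [Nat.card_zpowers, hk])
  have hn : Subgroup.zpowers x ≤ Subgroup.normalizer (Subgroup.zpowers y : Set P) := by
    refine le_trans ?_ (Subgroup.centralizer_le_normalizer _)
    rw [Subgroup.zpowers_le, Subgroup.mem_centralizer_iff]
    rintro _ ⟨n, rfl⟩
    exact (Commute.zpow_left (show Commute y x from hc.symm) n).eq
  obtain ⟨T, hT⟩ := ((hz x hx).to_sup_of_normal_right' (hz y hy) hn).exists_le_sylow
  obtain ⟨h, hh⟩ := MulAction.exists_smul_eq P T D.S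
  refine ⟨h, ?_, ?_⟩ <;> rw [← hh] <;> refine ⟨_, hT ?_, rfl⟩
  · exact Subgroup.mem_sup_left (Subgroup.mem_zpowers x)
  · exact Subgroup.mem_sup_right (Subgroup.mem_zpowers y)

section
variable (h2 : (2 : F) = 0)
include h2

theorem sq_vals {s : P} (hs : s ∈ D.S) :
    D.a (s * s) = 0 ∧ D.b (s * s) = 0 ∧ D.z (s * s) = D.a s * D.b s := by
  obtain ⟨e1, e2, e3⟩ := D.mul_vals hs hs
  exact ⟨by linear_combination e1 + D.a s * h2, by linear_combination e2 + D.b s * h2,
    by linear_combination e3 + D.z s * h2⟩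

theorem ab_eq_zero {s : P} (hs : s ∈ D.S) (h : s * s = 1) : D.a s * D.b s = 0 := by
  have := (D.sq_vals h2 hs).2.2
  rw [h, D.one_vals.2.2] at this
  exact this.symm

theorem commute_omega {s t : P} (hs : s ∈ D.S) (ht : t ∈ D.S) (h : s * t = t * s) :
    D.a s * D.b t = D.a t * D.b s := by
  have e1 := (D.mul_vals hs ht).2.2
  have e2 := (D.mul_vals ht hs).2.2
  rw [h, e2] at e1
  linear_combination -e1

theorem zuniq (hnr : ¬ HasRootPair P) {s t : P} (hs : s ∈ D.S) (ht : t ∈ D.S)
    (has : D.a s = 0) (hbs : D.b s = 0) (hat : D.a t = 0) (hbt : D.b t = 0) (hzs : D.z s ≠ 0)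
    (hzt : D.z t ≠ 0) : s = t := by
  refine D.ext_vals hs ht (has.trans hat.symm) (hbs.trans hbt.symm) ?_
  by_contra hne
  refine hnr (rootPair_of_conj D.B s.2 t.2 (v := ![1, 0, 0]) (w := ![0, 0, D.z s]) (c := D.z t / D.z s)
    (by simp [dotProduct, Fin.sum_univ_three]) (fun h => by simpa using congrFun h 0)
    (fun h => hzs (by simpa using congrFun h 2)) (div_ne_zero hzt hzs)
    (fun h => hne ((div_eq_one_iff_eq hzs).1 h).symm) ?_ ?_)
  · change (D.hom s : Matrix (Fin 3) (Fin 3) F) = _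
    rw [D.shape hs, has, hbs]
    ext i j; fin_cases i <;> fin_cases j <;> simp [vecMulVec_apply]
  · change (D.hom t : Matrix (Fin 3) (Fin 3) F) = _
    rw [D.shape ht, hat, hbt]
    ext i j; fin_cases i <;> fin_cases j <;> simp [vecMulVec_apply, div_mul_cancel₀ _ hzs]

theorem central_z {s : P} (hs : s ∈ D.S) (ha : D.a s = 0) (hb : D.b s = 0) (h1 : s ≠ 1) : D.z s ≠ 0 :=
  fun h => h1 (D.eq_one hs ha hb h)

/-- A common centre for all involutions: the elation configuration. -/
theorem hyp_left (hnr : ¬ HasRootPair P) (hirr : ActsIrreducibly (matrixSet P))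
    (hb : ∀ s ∈ D.S, D.b s = 0) (hcard : 8 ≤ Nat.card D.S) : Hyp D.hom.range := by
  classical
  have hel : ∀ s ∈ D.S, (D.hom s : Matrix (Fin 3) (Fin 3) F) = elM (D.a s) (D.z s) := fun s hs => by
    rw [D.shape hs, hb s hs]; rfl
  refine ⟨?_, ?_, ?_, ?_⟩
  · rintro t u c ⟨_, ⟨x, rfl⟩, ex⟩ ⟨_, ⟨y, rfl⟩, ey⟩ htu
    by_contra! hc
    refine hnr (rootPair_of_conj D.B x.2 y.2 (v := ![1, 0, 0]) (w := ![0, t, u]) (c := c)
      (by simp [dotProduct, Fin.sum_univ_three]) (fun h => by simpa using congrFun h 0) ?_ hc.1 hc.2 ?_ ?_)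
    · intro h
      rcases htu with h' | h'
      · exact h' (by simpa using congrFun h 1)
      · exact h' (by simpa using congrFun h 2)
    · change (D.hom x : Matrix (Fin 3) (Fin 3) F) = _
      rw [ex]; ext i j; fin_cases i <;> fin_cases j <;> simp [elM, vecMulVec_apply]
    · change (D.hom y : Matrix (Fin 3) (Fin 3) F) = _
      rw [ey]; ext i j; fin_cases i <;> fin_cases j <;> simp [elM, vecMulVec_apply]
  · intro f hf
    obtain ⟨g, hg, h⟩ := exists_ap_ne_zero hirr
      (ap_ne_zero D.B⁻¹ (show (e₀ : Fin 3 → F) ≠ 0 from fun h => by simpa [e₀] using congrFun h 0))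
      (f := f.comp (apEquiv D.B).toLinearMap) (fun h => hf (LinearMap.ext fun x => by
        simpa [ap_ap_inv] using LinearMap.congr_fun h (ap D.B⁻¹ x)))
    refine ⟨D.hom ⟨g, hg⟩, ⟨_, rfl⟩, ?_⟩
    simpa [Frame.hom, MulAut.conj_apply, ap_mul] using h
  · rintro _ ⟨x, rfl⟩ _ ⟨y, rfl⟩ hx hy hc
    rw [← map_pow] at hx hy
    rw [← map_mul, ← map_mul] at hc
    have hx' := D.hom_injective (hx.trans (map_one _).symm)
    have hy' := D.hom_injective (hy.trans (map_one _).symm)
    obtain ⟨h, h1, h3⟩ := D.pair hx' hy' (D.hom_injective hc)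
    refine ⟨D.hom h, ⟨h, rfl⟩, D.a (h * x * h⁻¹), D.z (h * x * h⁻¹), D.a (h * y * h⁻¹), D.z (h * y * h⁻¹), ?_, ?_⟩
    · rw [← map_inv, ← map_mul, ← map_mul]; exact hel _ h1
    · rw [← map_inv, ← map_mul, ← map_mul]; exact hel _ h3
  · refine hcard.trans (Nat.card_le_card_of_injective
      (fun s : D.S => (⟨(D.a s, D.z s), _, ⟨(s : P), rfl⟩, hel _ s.2⟩ :
        {p : F × F // Has D.hom.range (elM p.1 p.2)})) ?_)
    intro s t e
    have e' := congrArg Subtype.val e
    simp only [Prod.mk.injEq] at e'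
    exact Subtype.ext (D.ext_vals s.2 t.2 e'.1 ((hb _ s.2).trans (hb _ t.2).symm) e'.2)

/-- A common axis for all involutions: the dual configuration. -/
theorem hyp_right (hnr : ¬ HasRootPair P) (hirr : ActsIrreducibly (matrixSet P))
    (ha : ∀ s ∈ D.S, D.a s = 0) (hcard : 8 ≤ Nat.card D.S) : Hyp (dual.comp D.hom).range := by
  classical
  have hel : ∀ s ∈ D.S, (dual (D.hom s) : Matrix (Fin 3) (Fin 3) F) = elM (D.b s) (D.z s) := fun s hs =>
    dual_eq_elM h2 (by rw [D.shape hs, ha s hs])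
  have hinj : Function.Injective (dual.comp D.hom) := dual_injective.comp D.hom_injective
  have hback : ∀ (x : P) (t u : F), (dual (D.hom x) : Matrix (Fin 3) (Fin 3) F) = elM t u →
      (D.hom x : Matrix (Fin 3) (Fin 3) F) = !![1, 0, u; 0, 1, t; 0, 0, 1] := by
    intro x t u h
    have hdet : IsUnit (!![1, (0 : F), u; 0, 1, t; 0, 0, 1]).det := by simp [det_fin_three]
    obtain ⟨g, hg⟩ := (isUnit_iff_isUnit_det _).2 hdet
    rw [show D.hom x = g from dual_injective (Units.ext (h.trans (dual_eq_elM h2 hg).symm)), hg]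
  refine ⟨?_, ?_, ?_, ?_⟩
  · rintro t u c ⟨_, ⟨x, rfl⟩, ex⟩ ⟨_, ⟨y, rfl⟩, ey⟩ htu
    by_contra! hc
    refine hnr (rootPair_of_conj D.B x.2 y.2 (v := ![u, t, 0]) (w := ![0, 0, 1]) (c := c)
      (by simp [dotProduct, Fin.sum_univ_three]) ?_ (fun h => by simpa using congrFun h 2) hc.1 hc.2 ?_ ?_)
    · intro h
      rcases htu with h' | h'
      · exact h' (by simpa using congrFun h 1)
      · exact h' (by simpa using congrFun h 0)
    · change (D.hom x : Matrix (Fin 3) (Fin 3) F) = _
      rw [hback x t u ex]; ext i j; fin_cases i <;> fin_cases j <;> simp [vecMulVec_apply]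
    · change (D.hom y : Matrix (Fin 3) (Fin 3) F) = _
      rw [hback y _ _ ey]; ext i j; fin_cases i <;> fin_cases j <;> simp [vecMulVec_apply]
  · intro f hf
    obtain ⟨g, hg, h⟩ := exists_ap_ne_zero hirr
      (ap_ne_zero D.B⁻¹ (show (fun j : Fin 3 => f (Pi.single j.rev 1)) ≠ 0 from fun h => hf
        (LinearMap.pi_ext' fun i => LinearMap.ext_ring (by simpa using congrFun h i.rev))))
      (f := (LinearMap.proj (2 : Fin 3)).comp (apEquiv D.B).toLinearMap) (fun h => by
        simpa [ap_ap_inv, e₂] using LinearMap.congr_fun h (ap D.B⁻¹ e₂))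
    refine ⟨dual (D.hom ⟨g⁻¹, inv_mem hg⟩), ⟨_, rfl⟩, ?_⟩
    have h' : ap (D.hom ⟨g, hg⟩) (fun j : Fin 3 => f (Pi.single j.rev 1)) 2 ≠ 0 := by
      simpa [Frame.hom, MulAut.conj_apply, ap_mul] using h
    have e : f (ap (dual (D.hom ⟨g⁻¹, inv_mem hg⟩)) e₀) =
        ap (D.hom ⟨g, hg⟩) (fun j : Fin 3 => f (Pi.single j.rev 1)) 2 := by
      have hi : (D.hom ⟨g⁻¹, inv_mem hg⟩)⁻¹ = D.hom ⟨g, hg⟩ := by
        rw [← map_inv]; congr 1; all_goals exact Subtype.ext (inv_inv g)
      have hcol : ap (dual (D.hom ⟨g⁻¹, inv_mem hg⟩)) e₀ =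
          fun i => (D.hom ⟨g, hg⟩ : Matrix (Fin 3) (Fin 3) F) 2 i.rev := by
        funext i
        rw [ap_def]
        simp [e₀, Matrix.mulVec, dotProduct, Fin.sum_univ_three, dual_apply, hi, Fin.rev]
      have hf3 : ∀ x : Fin 3 → F, f x = x 0 * f (Pi.single 0 1) + x 1 * f (Pi.single 1 1) +
          x 2 * f (Pi.single 2 1) := fun x => by
        conv_lhs => rw [pi_eq_sum_univ' x]
        simp [Fin.sum_univ_three]
      rw [hcol, hf3]
      simp [ap_def, Matrix.mulVec, dotProduct, Fin.sum_univ_three, Fin.rev]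
      ring
    rw [e]; exact h'
  · rintro _ ⟨x, rfl⟩ _ ⟨y, rfl⟩ hx hy hc
    rw [← map_pow] at hx hy
    rw [← map_mul, ← map_mul] at hc
    have hx' := hinj (hx.trans (map_one _).symm)
    have hy' := hinj (hy.trans (map_one _).symm)
    obtain ⟨h, h1, h3⟩ := D.pair hx' hy' (hinj hc)
    refine ⟨(dual.comp D.hom) h, ⟨h, rfl⟩, D.b (h * x * h⁻¹), D.z (h * x * h⁻¹), D.b (h * y * h⁻¹), D.z (h * y * h⁻¹), ?_, ?_⟩
    · rw [← map_inv, ← map_mul, ← map_mul]; exact hel _ h1
    · rw [← map_inv, ← map_mul, ← map_mul]; exact hel _ h3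
  · refine hcard.trans (Nat.card_le_card_of_injective
      (fun s : D.S => (⟨(D.b s, D.z s), _, ⟨(s : P), rfl⟩, hel _ s.2⟩ :
        {p : F × F // Has (dual.comp D.hom).range (elM p.1 p.2)})) ?_)
    intro s t e
    have e' := congrArg Subtype.val e
    simp only [Prod.mk.injEq] at e'
    exact Subtype.ext (D.ext_vals s.2 t.2 ((ha _ s.2).trans (ha _ t.2).symm) e'.1 e'.2)

end

/-- A non-abelian Sylow subgroup has order eight. -/
theorem card_eq_eight (h2 : (2 : F) = 0) (hnr : ¬ HasRootPair P) {u v : P} (hu : u ∈ D.S) (hv : v ∈ D.S)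
    (huv : u * v ≠ v * u) : Nat.card D.S = 8 := by
  classical
  haveI : Fact (Nat.Prime 2) := ⟨Nat.prime_two⟩
  have hω : ∀ s t : P, s ∈ D.S → t ∈ D.S → D.a s * D.b t - D.a t * D.b s ≠ 0 →
      ∃ w : P, w ∈ D.S ∧ D.a w = 0 ∧ D.b w = 0 ∧ D.z w = D.a s * D.b t - D.a t * D.b s := by
    intro s t hs ht hne
    have hts := mul_mem ht hs
    have hw : s * t * (t * s)⁻¹ ∈ D.S := mul_mem (mul_mem hs ht) (inv_mem hts)
    obtain ⟨e1, e2, e3⟩ := D.mul_vals hw hts
    rw [inv_mul_cancel_right] at e1 e2 e3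
    obtain ⟨f1, f2, f3⟩ := D.mul_vals hs ht
    obtain ⟨g1, g2, g3⟩ := D.mul_vals ht hs
    have ha : D.a (s * t * (t * s)⁻¹) = 0 := by linear_combination f1 - e1 - g1
    refine ⟨_, hw, ha, by linear_combination f2 - e2 - g2, ?_⟩
    rw [ha] at e3
    linear_combination f3 - e3 - g3
  have hΩ : D.a u * D.b v - D.a v * D.b u ≠ 0 := by
    intro h
    apply huv
    obtain ⟨f1, f2, f3⟩ := D.mul_vals hu hv
    obtain ⟨g1, g2, g3⟩ := D.mul_vals hv hu
    exact D.ext_vals (mul_mem hu hv) (mul_mem hv hu) (by linear_combination f1 - g1)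
      (by linear_combination f2 - g2) (by linear_combination f3 - g3 + h)
  obtain ⟨w, hw, haw, hbw, hzw⟩ := hω u v hu hv hΩ
  have hval : ∀ s t : P, s ∈ D.S → t ∈ D.S →
      D.a s * D.b t - D.a t * D.b s = 0 ∨ D.a s * D.b t - D.a t * D.b s = D.z w := by
    intro s t hs ht
    by_cases h : D.a s * D.b t - D.a t * D.b s = 0
    · exact Or.inl h
    · obtain ⟨w', hw', haw', hbw', hzw'⟩ := hω s t hs ht h
      have := D.zuniq h2 hnr hw' hw haw' hbw' haw hbw (hzw' ▸ h) (hzw ▸ hΩ)
      exact Or.inr (by rw [← hzw', this])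
  let f : D.S →* Multiplicative (F × F) :=
    { toFun := fun s => Multiplicative.ofAdd (D.a s, D.b s)
      map_one' := by simp [D.one_vals.1, D.one_vals.2.1]
      map_mul' := fun s t => by
        obtain ⟨e1, e2, -⟩ := D.mul_vals s.2 t.2
        simp [e1, e2, ← ofAdd_add] }
  have hk : Nat.card f.ker ≤ 2 := by
    have hinj : Function.Injective fun s : f.ker => decide (((s : D.S) : P) = 1) := by
      intro s t e
      simp only [decide_eq_decide] at e
      apply Subtype.ext; apply Subtype.ext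
      have hs0 : D.a (s : D.S) = 0 ∧ D.b (s : D.S) = 0 := by
        simpa [f, Prod.ext_iff] using congrArg Multiplicative.toAdd (MonoidHom.mem_ker.1 s.2)
      have ht0 : D.a (t : D.S) = 0 ∧ D.b (t : D.S) = 0 := by
        simpa [f, Prod.ext_iff] using congrArg Multiplicative.toAdd (MonoidHom.mem_ker.1 t.2)
      by_cases h1 : ((s : D.S) : P) = 1
      · rw [h1, e.1 h1]
      · exact D.zuniq h2 hnr (s : D.S).2 (t : D.S).2 hs0.1 hs0.2 ht0.1 ht0.2
          (D.central_z h2 (s : D.S).2 hs0.1 hs0.2 h1)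
          (D.central_z h2 (t : D.S).2 ht0.1 ht0.2 (mt e.2 h1))
    simpa using Nat.card_le_card_of_injective _ hinj
  have hr : Nat.card f.range ≤ 4 := by
    have hinj : Function.Injective fun p : f.range =>
        (decide (D.a u * (Multiplicative.toAdd (p : Multiplicative (F × F))).2 -
            (Multiplicative.toAdd (p : Multiplicative (F × F))).1 * D.b u = 0),
          decide (D.a v * (Multiplicative.toAdd (p : Multiplicative (F × F))).2 -
            (Multiplicative.toAdd (p : Multiplicative (F × F))).1 * D.b v = 0)) := by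
      rintro ⟨_, s, rfl⟩ ⟨_, t, rfl⟩ e
      simp [f] at e
      have key : ∀ r : P, r ∈ D.S →
          (D.a r * D.b s - D.a s * D.b r = 0 ↔ D.a r * D.b t - D.a t * D.b r = 0) →
          D.a r * D.b s - D.a s * D.b r = D.a r * D.b t - D.a t * D.b r := by
        intro r hr h
        rcases hval r s hr s.2 with h1 | h1
        · rw [h1, h.1 h1]
        · rcases hval r t hr t.2 with h3 | h3
          · rw [h3, h.2 h3]
          · rw [h1, h3]
      have e1 := key u hu e.1
      have e2 := key v hv e.2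
      apply Subtype.ext
      have ea : (D.a (s : P) - D.a (t : P)) * (D.a u * D.b v - D.a v * D.b u) = 0 := by
        linear_combination D.a v * e1 - D.a u * e2
      have eb : (D.b (s : P) - D.b (t : P)) * (D.a u * D.b v - D.a v * D.b u) = 0 := by
        linear_combination D.b v * e1 - D.b u * e2
      have ea' := (mul_eq_zero.mp ea).resolve_right hΩ
      have eb' := (mul_eq_zero.mp eb).resolve_right hΩ
      simp [f, sub_eq_zero.mp ea', sub_eq_zero.mp eb']
    simpa using Nat.card_le_card_of_injective _ hinj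
  have hle : Nat.card D.S ≤ 8 := by
    rw [Subgroup.card_eq_card_quotient_mul_card_subgroup f.ker,
      Nat.card_congr (QuotientGroup.quotientKerEquivRange f).toEquiv]
    calc _ ≤ 4 * 2 := Nat.mul_le_mul hr hk
      _ = 8 := rfl
  obtain ⟨n, hn⟩ := D.S.2.exists_card_eq
  have hn3 : n ≤ 3 := by
    by_contra! h
    have := Nat.pow_le_pow_right (show 0 < 2 by omega) h
    omega
  rw [hn]
  interval_cases n
  · exfalso
    have : Subsingleton D.S := (Nat.card_eq_one_iff_unique.1 (by simpa using hn)).1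
    exact huv (by rw [show u = v from congrArg Subtype.val (this.elim (⟨u, hu⟩ : D.S) ⟨v, hv⟩)])
  · exfalso
    haveI := isCyclic_of_prime_card (α := D.S) (p := 2) (by simpa using hn)
    letI := IsCyclic.commGroup (α := D.S)
    exact huv (congrArg Subtype.val (mul_comm (⟨u, hu⟩ : D.S) ⟨v, hv⟩))
  · exfalso
    have hc := IsPGroup.commutative_of_card_eq_prime_sq (G := D.S) (p := 2) (by simpa using hn)
    exact huv (congrArg Subtype.val (hc ⟨u, hu⟩ ⟨v, hv⟩))
  · rfl

end Frame

end CfsgLib.SLThreeResidual.Even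

namespace CfsgLib.SLThreeResidual

open Matrix Cfsg.Geo CfsgLib.Geometric Even
open scoped MatrixGroups

variable {F : Type*} [Field F] [Fintype F] {P : Subgroup (GL (Fin 3) F)}

/-- In characteristic two there is a root pair, or the Sylow two-subgroups of the simple quotient are dihedral. -/
theorem rootPair_or_dihedral_two (h2 : (2 : F) = 0) (hC : Core P) :
    HasRootPair P ∨ ∃ (S : Sylow 2 (Proj P)) (n : ℕ), 2 ≤ n ∧
      Nonempty ((S : Subgroup (Proj P)) ≃* DihedralGroup n) := by
  classical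
  haveI : Fact (Nat.Prime 2) := ⟨Nat.prime_two⟩
  by_cases hnr : HasRootPair P
  · exact Or.inl hnr
  refine Or.inr ?_
  haveI : IsSimpleGroup (Proj P) := hC.simple
  have hnc := hC.nonabelian
  let S₀ : Sylow 2 P := default
  obtain ⟨B, hB⟩ := Even.exists_uni h2 (S₀.2.map P.subtype)
    ((Subgroup.map_subtype_le _).trans hC.le_sl)
  let D : Even.Frame P := ⟨S₀, B, fun s hs => hB _ ⟨s, hs, rfl⟩⟩
  let π : P →* Proj P := QuotientGroup.mk' _
  have hπ : Function.Surjective π := QuotientGroup.mk'_surjective _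
  let T : Sylow 2 (Proj P) := D.S.mapSurjective hπ
  have hπinj : ∀ s ∈ D.S, ∀ t ∈ D.S, π s = π t → s = t := by
    intro s hs t ht e
    have hm : s⁻¹ * t ∈ (scalars (Fin 3) F).subgroupOf P := QuotientGroup.eq.1 e
    have hscal : ∀ x : P, x ∈ D.S → x ∈ (scalars (Fin 3) F).subgroupOf P → x = 1 := by
      intro x hx hxs
      obtain ⟨k, hk⟩ := D.S.2 ⟨x, hx⟩
      have hk' : x ^ 2 ^ k = 1 := congrArg Subtype.val hk
      clear hk
      induction k with
      | zero => simpa using hk'
      | succ k ih =>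
        apply ih
        have hsq : x ^ 2 ^ k * x ^ 2 ^ k = 1 := by rw [← pow_two, ← pow_mul, ← pow_succ]; exact hk'
        exact Subtype.ext (Even.scalar_eq_one h2
          (Subgroup.mem_subgroupOf.1 (pow_mem hxs _)) (congrArg Subtype.val hsq))
    exact inv_mul_eq_one.1 (hscal _ (mul_mem (inv_mem hs) ht) hm)
  let r : D.S →* (T : Subgroup (Proj P)) :=
    (π.comp (D.S : Subgroup P).subtype).codRestrict _ fun s => ⟨s, s.2, rfl⟩
  have hr : Function.Bijective r :=
    ⟨fun s t e => Subtype.ext (hπinj _ s.2 _ t.2 (congrArg Subtype.val e)),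
      fun ⟨_, s, hs, e⟩ => ⟨⟨s, hs⟩, Subtype.ext e⟩⟩
  let e := MulEquiv.ofBijective r hr
  have hdih : ∀ n, Nonempty (D.S ≃* DihedralGroup n) → 2 ≤ n →
      ∃ (S : Sylow 2 (Proj P)) (n : ℕ), 2 ≤ n ∧ Nonempty ((S : Subgroup (Proj P)) ≃* DihedralGroup n) :=
    fun n ⟨g⟩ hn => ⟨T, n, hn, ⟨e.symm.trans g⟩⟩
  -- the quotient has even order
  have heven : ¬ Odd (Nat.card (Proj P)) := by
    intro ho
    haveI := Cfsg.Agent.S0205.result ho
    refine hnc ⟨⟨fun a b => ?_⟩⟩
    exact IsSimpleGroup.comm_iff_isSolvable.2 inferInstance a b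
  have hS : Nat.card D.S ≠ 1 := by
    intro h
    apply heven
    rw [Nat.odd_iff]
    by_contra hodd
    have h2d : 2 ∣ Nat.card (Proj P) := by omega
    have := Sylow.dvd_card_of_dvd_card T h2d
    rw [← Nat.card_congr e.toEquiv, h] at this
    omega
  -- a unique involution is impossible
  have huniq : ∀ z ∈ D.S, z ≠ 1 → z * z = 1 → (∀ s ∈ D.S, s * s = 1 → s = 1 ∨ s = z) → False := by
    intro z hz hz1 hzz hall
    have hu : orderOf (π z) = 2 := orderOf_eq_prime
      (by rw [pow_two, ← map_mul, hzz, map_one])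
      (fun h => hz1 (hπinj _ hz _ (one_mem _) (h.trans (map_one π).symm)))
    have hiso : ∀ g : Proj P, g * π z * g⁻¹ ∈ T → g * π z * g⁻¹ = π z := by
      rintro g ⟨s, hs, es⟩
      have hss : π (s * s) = π 1 := by
        rw [map_mul, es, conj_mul, ← map_mul, hzz, map_one, mul_one, mul_inv_cancel]
      rcases hall s hs (hπinj _ (mul_mem hs hs) _ (one_mem _) hss) with rfl | rfl
      · exfalso
        rw [map_one] at es
        have := conj_eq_one_iff.1 es.symm
        rw [this, orderOf_one] at hu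
        omega
      · exact es.symm
    have hO : Cfsg.oddCore (Proj P) = ⊥ := by
      refine (Subgroup.Normal.eq_bot_or_eq_top inferInstance).resolve_right fun h => heven ?_
      have := CfsgLib.Cores.odd_card_oddCore (G := Proj P)
      rwa [h, Subgroup.card_top] at this
    have hmem := CfsgLib.Involutions.mem_center_of_isolated T hu hiso hO
    rcases Subgroup.Normal.eq_bot_or_eq_top (inferInstance : (Subgroup.center (Proj P)).Normal) with h | h
    · rw [h, Subgroup.mem_bot] at hmem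
      rw [hmem, orderOf_one] at hu
      omega
    · exact hnc ⟨⟨fun a b => (Subgroup.mem_center_iff.1 (h ▸ Subgroup.mem_top b) a)⟩⟩
  by_cases habel : ∀ u ∈ D.S, ∀ v ∈ D.S, u * v = v * u
  swap
  · push_neg at habel
    obtain ⟨u, hu, v, hv, huv⟩ := habel
    have h8 := D.card_eq_eight h2 hnr hu hv huv
    by_cases hinv : ∃ s ∈ D.S, s * s = 1 ∧ ∃ t ∈ D.S, t * s ≠ s * t
    · obtain ⟨s, hs, hss, t, ht, hts⟩ := hinv
      exact hdih 4 (CfsgLib.ReflectionsSpinor.POmegaQuot.nonempty_dihedral h8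
        (a := (⟨s, hs⟩ : D.S)) (s := ⟨t, ht⟩) (Subtype.ext hss)
        (fun h => hts (congrArg Subtype.val h))) (by omega)
    · push_neg at hinv
      exfalso
      -- all involutions are central
      haveI : Nontrivial D.S := (Finite.one_lt_card_iff_nontrivial).mp (by omega)
      obtain ⟨⟨z, hz⟩, hzo⟩ := exists_prime_orderOf_dvd_card' (G := D.S) 2 (by rw [h8]; norm_num)
      have hzz : z * z = 1 := by
        have := pow_orderOf_eq_one (⟨z, hz⟩ : D.S)
        rw [hzo, pow_two] at this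
        exact congrArg Subtype.val this
      have hz1 : z ≠ 1 := fun h => by
        rw [show (⟨z, hz⟩ : D.S) = 1 from Subtype.ext h, orderOf_one] at hzo
        omega
      have hcent : ∀ s ∈ D.S, s * s = 1 → D.a s = 0 ∧ D.b s = 0 := by
        intro s hs hss
        have e1 := D.commute_omega h2 hs hu (hinv s hs hss u hu).symm
        have e3 := D.commute_omega h2 hs hv (hinv s hs hss v hv).symm
        have hΩ : D.a u * D.b v - D.a v * D.b u ≠ 0 := by
          intro h
          obtain ⟨f1, f2, f3⟩ := D.mul_vals hu hv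
          obtain ⟨g1, g2, g3⟩ := D.mul_vals hv hu
          exact huv (D.ext_vals (mul_mem hu hv) (mul_mem hv hu) (by linear_combination f1 - g1)
            (by linear_combination f2 - g2) (by linear_combination f3 - g3 + h))
        constructor
        · refine (mul_eq_zero.mp (?_ : D.a s * (D.a u * D.b v - D.a v * D.b u) = 0)).resolve_right hΩ
          linear_combination D.a u * e3 - D.a v * e1
        · refine (mul_eq_zero.mp (?_ : D.b s * (D.a u * D.b v - D.a v * D.b u) = 0)).resolve_right hΩ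
          linear_combination D.b u * e3 - D.b v * e1
      refine huniq z hz hz1 hzz fun s hs hss => or_iff_not_imp_left.2 fun hs1 => ?_
      obtain ⟨za, zb⟩ := hcent z hz hzz
      obtain ⟨sa, sb⟩ := hcent s hs hss
      exact D.zuniq h2 hnr hs hz sa sb za zb (D.central_z h2 hs sa sb hs1) (D.central_z h2 hz za zb hz1)
  · by_cases hab : ∃ w ∈ D.S, D.a w * D.b w ≠ 0
    · obtain ⟨w, hw, hwne⟩ := hab
      exfalso
      obtain ⟨za, zb, zz⟩ := D.sq_vals h2 hw
      have hall : ∀ s ∈ D.S, s * s = 1 → D.a s = 0 ∧ D.b s = 0 := by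
        intro s hs hss
        have e1 := D.commute_omega h2 hs hw (habel s hs w hw)
        have ha : D.a w ≠ 0 := left_ne_zero_of_mul hwne
        have hb : D.b w ≠ 0 := right_ne_zero_of_mul hwne
        rcases mul_eq_zero.mp (D.ab_eq_zero h2 hs hss) with h | h
        · rw [h, zero_mul] at e1
          exact ⟨h, (mul_eq_zero.mp e1.symm).resolve_left ha⟩
        · rw [h, mul_zero] at e1
          exact ⟨(mul_eq_zero.mp e1).resolve_right hb, h⟩
      have hz1 : w * w ≠ 1 := fun h => hwne (D.ab_eq_zero h2 hw h)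
      have hwz : w * w * (w * w) = 1 :=
        D.eq_one (mul_mem (mul_mem hw hw) (mul_mem hw hw)) (D.sq_vals h2 (mul_mem hw hw)).1
          (D.sq_vals h2 (mul_mem hw hw)).2.1 (by rw [(D.sq_vals h2 (mul_mem hw hw)).2.2, za, zero_mul])
      refine huniq (w * w) (mul_mem hw hw) hz1 hwz fun s hs hss => or_iff_not_imp_left.2 fun hs1 => ?_
      obtain ⟨sa, sb⟩ := hall s hs hss
      exact D.zuniq h2 hnr hs (mul_mem hw hw) sa sb za zb (D.central_z h2 hs sa sb hs1) (zz ▸ hwne)
    · push_neg at hab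
      have hexp : ∀ s ∈ D.S, s * s = 1 := fun s hs =>
        D.eq_one (mul_mem hs hs) (D.sq_vals h2 hs).1 (D.sq_vals h2 hs).2.1
          ((D.sq_vals h2 hs).2.2.trans (hab s hs))
      obtain ⟨n, hn⟩ := D.S.2.exists_card_eq
      rcases lt_or_ge n 2 with hn2 | hn2
      · exfalso
        interval_cases n
        · exact hS (by simpa using hn)
        · haveI : Nontrivial D.S := (Finite.one_lt_card_iff_nontrivial).mp (by rw [hn]; norm_num)
          obtain ⟨⟨z, hz⟩, hz1⟩ := exists_ne (1 : D.S)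
          refine huniq z hz (fun h => hz1 (Subtype.ext h)) (hexp z hz) fun s hs _ => ?_
          have h2c : Nat.card D.S = 2 := by simpa using hn
          obtain ⟨x, y, hxy, hxyu⟩ := Nat.card_eq_two_iff.1 h2c
          have hmem : ∀ q : D.S, q = x ∨ q = y := fun q => by
            have : q ∈ ({x, y} : Set D.S) := hxyu ▸ Set.mem_univ q
            simpa using this
          rcases hmem ⟨s, hs⟩ with a1 | a1 <;> rcases hmem ⟨z, hz⟩ with a2 | a2 <;>
            rcases hmem 1 with a3 | a3 <;>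
            first
            | exact Or.inl (congrArg Subtype.val (a1.trans a3.symm))
            | exact Or.inr (congrArg Subtype.val (a1.trans a2.symm))
            | exact absurd (a2.trans a3.symm) hz1
      · by_cases hn3 : n = 2
        · subst hn3
          haveI : Nontrivial D.S := (Finite.one_lt_card_iff_nontrivial).mp (by rw [hn]; norm_num)
          obtain ⟨x, hx1⟩ := exists_ne (1 : D.S)
          have hsq : ∀ q : D.S, q * q = 1 := fun q => Subtype.ext (hexp _ q.2)
          have hox : orderOf x = 2 := orderOf_eq_prime ((pow_two x).trans (hsq x)) hx1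
          obtain ⟨y, hy⟩ : ∃ y, y ∉ Subgroup.zpowers x := by
            by_contra! h
            have := Nat.card_zpowers x
            rw [(Subgroup.eq_top_iff' _).2 h, Subgroup.card_top, hox] at this
            have h4 : Nat.card (D.S : Subgroup P) = 4 := hn
            exact absurd (h4.symm.trans this) (by norm_num)
          refine hdih 2 (CfsgLib.TwoGroups.nonempty_mulEquiv_dihedral hox (by rw [hn]; rfl) hy
            ((pow_two y).trans (hsq y)) ?_) le_rfl
          have hxy : y * x = x * y := Subtype.ext (habel _ y.2 _ x.2)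
          rw [hxy, mul_inv_cancel_right, inv_eq_of_mul_eq_one_right (hsq x)]
        · exfalso
          have h8 : 8 ≤ Nat.card D.S := by
            rw [hn]
            exact (Nat.pow_le_pow_right (show 0 < 2 by omega) (show 3 ≤ n by omega) :)
          have hside : (∀ s ∈ D.S, D.b s = 0) ∨ ∀ s ∈ D.S, D.a s = 0 := by
            by_contra! h
            obtain ⟨⟨p, hp, hpb⟩, q, hq, hqa⟩ := h
            have e1 := D.commute_omega h2 hp hq (habel p hp q hq)
            rw [(mul_eq_zero.mp (hab p hp)).resolve_right hpb, zero_mul] at e1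
            exact mul_ne_zero hqa hpb e1.symm
          rcases hside with h | h
          · exact Even.elation_false h2 (D.hyp_left h2 hnr hC.absIrred.1 h h8)
          · exact Even.elation_false h2 (D.hyp_right h2 hnr hC.absIrred.1 h h8)

end CfsgLib.SLThreeResidual
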