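import Cfsg.Agent.Lib.SLThreeResidual.EvenLine

/-!
# A large group of elations with one centre forces two proportional elations
-/

set_option autoImplicit false
set_option linter.unusedSectionVars false

namespace CfsgLib.SLThreeResidual.Even

open Matrix
open scoped MatrixGroups
open CfsgLib.Geometric

variable {F : Type*} [Field F]

/-- The first basis vector. -/
def e₀ : Fin 3 → F := ![1, 0, 0]

/-- The second basis vector. -/
def e₁ : Fin 3 → F := ![0, 1, 0]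

/-- The third basis vector. -/
def e₂ : Fin 3 → F := ![0, 0, 1]

/-- The functional `x ↦ t x₁ + u x₂`. -/
def fn (t u : F) : (Fin 3 → F) →ₗ[F] F := t • LinearMap.proj 1 + u • LinearMap.proj 2

theorem fn_apply (t u : F) (x : Fin 3 → F) : fn t u x = t * x 1 + u * x 2 := by simp [fn]

theorem fn_e₀ (t u : F) : fn t u (e₀ : Fin 3 → F) = 0 := by simp [fn_apply, e₀]

theorem vec_decomp (x : Fin 3 → F) : x = x 0 • e₀ + x 1 • e₁ + x 2 • e₂ := by
  ext i; fin_cases i <;> simp [e₀, e₁, e₂]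

theorem eq_fn {φ : (Fin 3 → F) →ₗ[F] F} (h : φ e₀ = 0) : φ = fn (φ e₁) (φ e₂) := by
  refine LinearMap.ext fun x => ?_
  conv_lhs => rw [vec_decomp x]
  simp only [map_add, map_smul, smul_eq_mul, h, fn_apply]
  ring

theorem val_tv (v : Fin 3 → F) (φ : (Fin 3 → F) →ₗ[F] F) (h : φ v = 0) (i j : Fin 3) :
    (tv v φ h : Matrix (Fin 3) (Fin 3) F) i j = (1 : Matrix (Fin 3) (Fin 3) F) i j +
      φ (Pi.single j 1) * v i := by
  have := congrFun (ap_tv v φ h (Pi.single j 1)) i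
  rw [ap_def, mulVec_single_one] at this
  simp only [col_apply, Pi.add_apply, Pi.smul_apply, smul_eq_mul] at this
  rw [this]
  simp [Matrix.one_apply, Pi.single_apply]

theorem elM_eq_tv (t u : F) : elM t u = (tv e₀ (fn t u) (fn_e₀ t u) : Matrix (Fin 3) (Fin 3) F) := by
  ext i j
  rw [val_tv]
  fin_cases i <;> fin_cases j <;> simp [elM, e₀, fn_apply]

theorem elM_apply_vec (t u : F) (x : Fin 3 → F) : elM t u *ᵥ x = x + fn t u x • e₀ := by
  rw [elM_eq_tv]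
  exact ap_tv _ _ _ x

variable [Finite F]

/-- The hypotheses of the elation argument. -/
structure Hyp (Q : Subgroup (GL (Fin 3) F)) : Prop where
  nr : ∀ t u c : F, Has Q (elM t u) → Has Q (elM (c * t) (c * u)) → (t ≠ 0 ∨ u ≠ 0) → c = 0 ∨ c = 1
  spanning : ∀ f : (Fin 3 → F) →ₗ[F] F, f ≠ 0 → ∃ g ∈ Q, f (ap g e₀) ≠ 0
  pair : ∀ x ∈ Q, ∀ y ∈ Q, x ^ 4 = 1 → y ^ 4 = 1 → x * y = y * x →
    ∃ h ∈ Q, ∃ t u t' u' : F, ((h * x * h⁻¹ : GL (Fin 3) F) : Matrix (Fin 3) (Fin 3) F) = elM t u ∧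
      ((h * y * h⁻¹ : GL (Fin 3) F) : Matrix (Fin 3) (Fin 3) F) = elM t' u'
  card : 8 ≤ Nat.card {p : F × F // Has Q (elM p.1 p.2)}

section
variable (h2 : (2 : F) = 0)
include h2

theorem tv_sq (v : Fin 3 → F) (φ : (Fin 3 → F) →ₗ[F] F) (h : φ v = 0) : tv v φ h * tv v φ h = 1 := by
  apply gl_ext
  intro x
  simp only [ap_mul, ap_tv, ap_one, map_add, map_smul, smul_eq_mul, h, mul_zero, add_zero]
  rw [add_assoc, ← add_smul, show φ x + φ x = 0 by linear_combination φ x * h2, zero_smul, add_zero]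

theorem tv_pow_four (v : Fin 3 → F) (φ : (Fin 3 → F) →ₗ[F] F) (h : φ v = 0) : tv v φ h ^ 4 = 1 := by
  rw [show (4 : ℕ) = 2 * 2 from rfl, pow_mul, pow_two (tv v φ h), tv_sq h2, one_pow]

theorem Hyp.sq {Q : Subgroup (GL (Fin 3) F)} (H : Hyp Q) {g : GL (Fin 3) F} (hg : g ∈ Q) (h4 : g ^ 4 = 1) :
    g * g = 1 := by
  obtain ⟨h, -, t, u, -, -, hx, -⟩ := H.pair g hg g hg h4 h4 rfl
  have e : (h * g * h⁻¹) * (h * g * h⁻¹) = 1 := by
    apply Units.ext
    rw [Units.val_mul, hx, elM_mul, show t + t = 0 by linear_combination t * h2,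
      show u + u = 0 by linear_combination u * h2]
    ext i j; fin_cases i <;> fin_cases j <;> simp [elM]
  have : h * (g * g) * h⁻¹ = 1 := by rw [← e]; group
  rwa [conj_eq_one_iff] at this

/-- Commuting transvections have the same centre. -/
theorem Hyp.common {Q : Subgroup (GL (Fin 3) F)} (H : Hyp Q) {c c' : Fin 3 → F}
    {φ ψ : (Fin 3 → F) →ₗ[F] F} {hφ : φ c = 0} {hψ : ψ c' = 0} (hx : tv c φ hφ ∈ Q) (hy : tv c' ψ hψ ∈ Q)
    (hcomm : tv c φ hφ * tv c' ψ hψ = tv c' ψ hψ * tv c φ hφ) (hc : c ≠ 0) (hφ0 : φ ≠ 0) (hψ0 : ψ ≠ 0) :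
    c' ∈ Submodule.span F {c} := by
  obtain ⟨h, -, t, u, t', u', ex, ey⟩ := H.pair _ hx _ hy (tv_pow_four h2 _ _ _) (tv_pow_four h2 _ _ _) hcomm
  have key : ∀ (d : Fin 3 → F) (χ : (Fin 3 → F) →ₗ[F] F) (hd : χ d = 0) (s r : F), χ ≠ 0 →
      ((h * tv d χ hd * h⁻¹ : GL (Fin 3) F) : Matrix (Fin 3) (Fin 3) F) = elM s r →
      ∃ a : F, ap h d = a • e₀ := by
    intro d χ hd s r hχ e
    obtain ⟨z, hz⟩ : ∃ z, χ z ≠ 0 := by
      by_contra! hc
      exact hχ (LinearMap.ext hc)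
    refine ⟨(χ z)⁻¹ * fn s r (ap h z), ?_⟩
    have e2 : ap (h * tv d χ hd * h⁻¹) (ap h z) = ap h z + fn s r (ap h z) • e₀ := by
      rw [ap_def, e, elM_apply_vec]
    rw [ap_mul, ap_inv_ap, ap_mul, ap_tv, ap_add, ap_smul] at e2
    rw [mul_smul, ← add_left_cancel e2, smul_smul, inv_mul_cancel₀ hz, one_smul]
  obtain ⟨a, ha⟩ := key _ _ _ _ _ hφ0 ex
  obtain ⟨b, hb⟩ := key _ _ _ _ _ hψ0 ey
  have ha0 : a ≠ 0 := by
    rintro rfl
    exact ap_ne_zero h hc (ha.trans (zero_smul _ _))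
  refine Submodule.mem_span_singleton.2 ⟨b / a, ap_injective h ?_⟩
  rw [ap_smul, ha, hb, smul_smul, div_mul_cancel₀ b ha0]

/-- The centre of a transvection is moved by every transvection with another centre. -/
theorem Hyp.cross {Q : Subgroup (GL (Fin 3) F)} (H : Hyp Q) {c c' : Fin 3 → F}
    {φ ψ : (Fin 3 → F) →ₗ[F] F} {hφ : φ c = 0} {hψ : ψ c' = 0} (hx : tv c φ hφ ∈ Q) (hy : tv c' ψ hψ ∈ Q)
    (hc : c ≠ 0) (hcc : c' ∉ Submodule.span F {c}) (hφ0 : φ ≠ 0) (hψ0 : ψ ≠ 0) : φ c' ≠ 0 := by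
  intro h0
  by_cases h1 : ψ c = 0
  · refine hcc (H.common h2 hx hy ?_ hc hφ0 hψ0)
    apply gl_ext
    intro z
    simp only [ap_mul, ap_tv, map_add, map_smul, smul_eq_mul, h0, h1, mul_zero, add_zero]
    abel
  · have hy' := mul_mem hy (mul_mem (mul_mem hx hy) hx)
    have e : tv c' ψ hψ * (tv c φ hφ * tv c' ψ hψ * tv c φ hφ) =
        tv c' (ψ c • φ) (by simp [h0]) := by
      apply gl_ext
      intro z
      simp only [ap_mul, ap_tv, map_add, map_smul, smul_eq_mul, LinearMap.smul_apply, hφ, hψ, h0,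
        mul_zero, add_zero]
      have e1 : φ z • c + φ z • c = 0 := by
        rw [← add_smul, show φ z + φ z = 0 by linear_combination φ z * h2, zero_smul]
      have e2 : (ψ z + φ z * ψ c) • c' + (ψ z + φ z * ψ c + φ z * ψ c) • c' = (ψ c * φ z) • c' := by
        rw [← add_smul]; congr 1
        linear_combination (ψ z + φ z * ψ c) * h2
      linear_combination (norm := module) e1 + e2
    rw [e] at hy'
    refine hcc (H.common h2 hx hy' ?_ hc hφ0 (smul_ne_zero h1 hφ0))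
    apply gl_ext
    intro z
    simp only [ap_mul, ap_tv, map_add, map_smul, smul_eq_mul, LinearMap.smul_apply, hφ, h0,
      mul_zero, add_zero]
    abel

end

/-- `tv e₀ φ` lies in `Q`. -/
def El (Q : Subgroup (GL (Fin 3) F)) (φ : (Fin 3 → F) →ₗ[F] F) : Prop :=
  ∃ h : φ e₀ = 0, tv e₀ φ h ∈ Q

theorem el_fn {Q : Subgroup (GL (Fin 3) F)} {t u : F} : El Q (fn t u) ↔ Has Q (elM t u) := by
  constructor
  · rintro ⟨h, hm⟩
    exact ⟨_, hm, (elM_eq_tv t u).symm⟩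
  · rintro ⟨g, hg, e⟩
    refine ⟨fn_e₀ t u, ?_⟩
    have : g = tv e₀ (fn t u) (fn_e₀ t u) := Units.ext (e.trans (elM_eq_tv t u))
    rwa [this] at hg

theorem exists_frame {d e : Fin 3 → F} (hdet : d 1 * e 2 - d 2 * e 1 ≠ 0) :
    ∃ B : GL (Fin 3) F, ap B e₀ = e₀ ∧ ap B e₁ = d ∧ ap B e₂ = e := by
  have h : IsUnit (!![1, d 0, e 0; 0, d 1, e 1; 0, d 2, e 2]).det := by
    rw [det_fin_three]
    simp
    intro h
    exact hdet (by linear_combination h)
  obtain ⟨B, hB⟩ := (isUnit_iff_isUnit_det _).2 h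
  refine ⟨B, ?_, ?_, ?_⟩ <;>
    ext i <;> fin_cases i <;>
    simp [ap_def, hB, e₀, e₁, e₂, Matrix.mulVec, dotProduct, Fin.sum_univ_three]

theorem line_data (h2 : (2 : F) = 0) {Q : Subgroup (GL (Fin 3) F)} (H : Hyp Q) {g : GL (Fin 3) F}
    (hg : g ∈ Q) {e : Fin 3 → F} (hdet : ap g e₀ 1 * e 2 - ap g e₀ 2 * e 1 ≠ 0) :
    ∃ (k : Subfield F) (t₀ A B : F), t₀ ≠ 0 ∧ B ≠ 0 ∧ 8 ≤ Nat.card k ∧
      (∀ μ ∈ k, ∃ φ, El Q φ ∧ φ (ap g e₀) = t₀ * (μ * μ) ∧ φ e = A * (μ * μ) + B * μ) ∧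
      ∀ φ, El Q φ → ∃ μ ∈ k, φ (ap g e₀) = t₀ * (μ * μ) ∧ φ e = A * (μ * μ) + B * μ := by
  classical
  obtain ⟨B, hB0, hB1, hB2⟩ := exists_frame hdet
  set d := ap g e₀ with hd
  have hB0' : ap B⁻¹ e₀ = e₀ := by conv_lhs => rw [← hB0, ap_inv_ap]
  have hB1' : ap B⁻¹ d = e₁ := by rw [← hB1, ap_inv_ap]
  have hB2' : ap B⁻¹ e = e₂ := by rw [← hB2, ap_inv_ap]
  let Q₁ := Q.map (MulAut.conj B⁻¹).toMonoidHom
  have hiff : ∀ t u, Has Q₁ (elM t u) ↔ ∃ φ, El Q φ ∧ φ d = t ∧ φ e = u := by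
    intro t u
    constructor
    · rintro ⟨_, ⟨x, hx, rfl⟩, ex⟩
      refine ⟨(fn t u).comp (apEquiv B⁻¹).toLinearMap, ⟨?_, ?_⟩, ?_, ?_⟩
      · simp [hB0', fn_e₀]
      · have e1 : (MulAut.conj B⁻¹).toMonoidHom x = tv e₀ (fn t u) (fn_e₀ t u) :=
          Units.ext (ex.trans (elM_eq_tv t u))
        have e2 : x = B * tv e₀ (fn t u) (fn_e₀ t u) * B⁻¹ := by
          rw [← e1]; simp [MulAut.conj_apply]; group
        rw [e2, conj_tv] at hx
        have e3 : tv e₀ ((fn t u).comp (apEquiv B⁻¹).toLinearMap) (by simp [hB0', fn_e₀]) =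
            tv (ap B e₀) ((fn t u).comp (apEquiv B⁻¹).toLinearMap) (by simp [ap_inv_ap, fn_e₀]) :=
          tv_eq_tv _ _ fun x => by rw [hB0]
        rw [e3]
        exact hx
      · simp [hB1', fn_apply, e₁]
      · simp [hB2', fn_apply, e₂]
    · rintro ⟨φ, ⟨h0, hx⟩, h1, h3⟩
      refine ⟨_, ⟨_, hx, rfl⟩, ?_⟩
      change ((B⁻¹ * tv e₀ φ h0 * B⁻¹⁻¹ : GL (Fin 3) F) : Matrix (Fin 3) (Fin 3) F) = _
      rw [conj_tv, elM_eq_tv]
      congr 1
      refine tv_eq_tv _ _ fun x => ?_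
      rw [hB0']
      congr 1
      have h0' : (φ.comp (apEquiv B⁻¹⁻¹).toLinearMap) e₀ = 0 := by simp [hB0, h0]
      conv_lhs => rw [eq_fn h0']
      simp [hB1, hB2, h1, h3]
  have hne : (e₀ : Fin 3 → F) ≠ 0 := fun h => by simpa [e₀] using congrFun h 0
  have hdspan : d ∉ Submodule.span F {(e₀ : Fin 3 → F)} := by
    intro h
    obtain ⟨c, hc⟩ := Submodule.mem_span_singleton.1 h
    apply hdet
    rw [← hc]; simp [e₀]
  -- values at `d` and `e` determine the functional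
  have hdetm : ∀ φ ψ : (Fin 3 → F) →ₗ[F] F, φ e₀ = 0 → ψ e₀ = 0 → φ d = ψ d → φ e = ψ e → φ = ψ := by
    intro φ ψ a b c f
    have h1 : φ.comp (apEquiv B).toLinearMap = ψ.comp (apEquiv B).toLinearMap := by
      rw [eq_fn (φ := φ.comp (apEquiv B).toLinearMap) (by simp [hB0, a]),
        eq_fn (φ := ψ.comp (apEquiv B).toLinearMap) (by simp [hB0, b])]
      simp [hB1, hB2, c, f]
    refine LinearMap.ext fun x => ?_
    simpa [ap_ap_inv] using LinearMap.congr_fun h1 (ap B⁻¹ x)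
  have h8 : 8 ≤ Nat.card {p : F × F // Has Q₁ (elM p.1 p.2)} := by
    refine H.card.trans (Nat.card_le_card_of_injective (fun p => (⟨(fn p.1.1 p.1.2 d, fn p.1.1 p.1.2 e),
      (hiff _ _).2 ⟨_, el_fn.2 p.2, rfl, rfl⟩⟩ : {p : F × F // Has Q₁ (elM p.1 p.2)})) ?_)
    intro p q epq
    have e' := congrArg Subtype.val epq
    simp only [Prod.mk.injEq] at e'
    have := hdetm _ _ (fn_e₀ _ _) (fn_e₀ _ _) e'.1 e'.2
    apply Subtype.ext
    refine Prod.ext ?_ ?_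
    · simpa [fn_apply, e₁] using LinearMap.congr_fun this e₁
    · simpa [fn_apply, e₂] using LinearMap.congr_fun this e₂
  obtain ⟨⟨⟨t, u⟩, hs⟩, hsne⟩ : ∃ p : {p : F × F // Has Q (elM p.1 p.2)}, p ≠ ⟨(0, 0), Has.elM_zero Q⟩ := by
    haveI : Nontrivial {p : F × F // Has Q (elM p.1 p.2)} :=
      Finite.one_lt_card_iff_nontrivial.mp (by have := H.card; omega)
    exact exists_ne _
  have hfn : fn t u ≠ (0 : (Fin 3 → F) →ₗ[F] F) := fun h => hsne (Subtype.ext (Prod.ext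
    (by simpa [fn_apply, e₁] using LinearMap.congr_fun h e₁)
    (by simpa [fn_apply, e₂] using LinearMap.congr_fun h e₂)))
  obtain ⟨hs0, hsQ⟩ := el_fn.2 hs
  have hy := mul_mem (mul_mem hg hsQ) (inv_mem hg)
  rw [conj_tv] at hy
  set ψ := (fn t u).comp (apEquiv g⁻¹).toLinearMap with hψ
  have hψd : ψ d = 0 := by simp [hψ, hd, ap_inv_ap, fn_e₀]
  have hψ0 : ψ ≠ 0 := fun h => hfn (LinearMap.ext fun x => by
    simpa [hψ, ap_inv_ap] using LinearMap.congr_fun h (ap g x))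
  have hκ : ψ e₀ ≠ 0 := by
    refine H.cross h2 hy hsQ (ap_ne_zero g hne) (fun h => ?_) hψ0 hfn
    obtain ⟨c, hc⟩ := Submodule.mem_span_singleton.1 h
    refine hdspan (Submodule.mem_span_singleton.2 ⟨c⁻¹, ?_⟩)
    have hc0 : c ≠ 0 := fun h0 => hne (by rw [← hc, h0, zero_smul])
    rw [← hc, smul_smul, inv_mul_cancel₀ hc0, one_smul]
  have hlow : Has Q₁ !![1, 0, 0; ψ e₀, 1, ψ e; 0, 0, 1] := by
    refine ⟨_, ⟨_, hy, rfl⟩, ?_⟩
    change ((B⁻¹ * tv d ψ hψd * B⁻¹⁻¹ : GL (Fin 3) F) : Matrix (Fin 3) (Fin 3) F) = _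
    rw [conj_tv]
    have s0 : (Pi.single (0 : Fin 3) (1 : F)) = e₀ := by ext i; fin_cases i <;> simp [e₀]
    have s1 : (Pi.single (1 : Fin 3) (1 : F)) = e₁ := by ext i; fin_cases i <;> simp [e₁]
    have s2 : (Pi.single (2 : Fin 3) (1 : F)) = e₂ := by ext i; fin_cases i <;> simp [e₂]
    ext i j
    rw [val_tv, hB1']
    fin_cases i <;> fin_cases j <;> simp [s0, s1, s2, hB0, hB1, hB2, hψd] <;> simp [e₁]
  have hsq : ∀ x ∈ Q₁, x ^ 4 = 1 → x * x = 1 := by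
    rintro _ ⟨x, hx, rfl⟩ h4
    rw [← map_pow] at h4
    have h4' : x ^ 4 = 1 := (MulAut.conj B⁻¹).injective (h4.trans (map_one _).symm)
    rw [← map_mul, H.sq h2 hx h4', map_one]
  have hinj : ∀ u, Has Q₁ (elM 0 u) → u = 0 := by
    intro u' hu
    obtain ⟨φ, ⟨h0, hφ⟩, h1, h3⟩ := (hiff _ _).1 hu
    by_cases hφ0 : φ = 0
    · rw [← h3, hφ0]; rfl
    · exact absurd h1 (H.cross h2 hφ hy hne hdspan hφ0 hψ0)
  obtain ⟨k, t₀, A, C, ht₀, hk, hin, hout⟩ := line_formula h2 hsq hinj hκ hlow h8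
  refine ⟨k, t₀, A, C, ht₀, ?_, hk, fun μ hμ => (hiff _ _).1 (hin μ hμ), fun φ hφ => ?_⟩
  · intro hC
    obtain ⟨φ, hφ, hφd, hφe⟩ := (hiff _ _).1 (hin 1 k.one_mem)
    obtain ⟨w, hw, hw0, hw1⟩ : ∃ w ∈ k, w ≠ 0 ∧ w ≠ 1 := by
      by_contra! hcon
      have : Function.Injective fun x : k => decide ((x : F) = 0) := by
        intro x y e
        simp only [decide_eq_decide] at e
        by_cases hx : (x : F) = 0
        · exact Subtype.ext (hx.trans (e.mp hx).symm)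
        · exact Subtype.ext ((hcon _ x.2 hx).trans (hcon _ y.2 (mt e.mpr hx)).symm)
      have := Nat.card_le_card_of_injective _ this
      simp at this
      omega
    obtain ⟨φ', hφ', hφ'd, hφ'e⟩ := (hiff _ _).1 (hin w hw)
    have hsm : φ' = (w * w) • φ := hdetm _ _ hφ'.1 (by simp [hφ.1])
      (by rw [hφ'd, LinearMap.smul_apply, hφd, smul_eq_mul]; ring)
      (by rw [hφ'e, LinearMap.smul_apply, hφe, smul_eq_mul, hC]; ring)
    have a : Has Q (elM (φ e₁) (φ e₂)) := el_fn.1 (eq_fn hφ.1 ▸ hφ)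
    have b : Has Q (elM (φ' e₁) (φ' e₂)) := el_fn.1 (eq_fn hφ'.1 ▸ hφ')
    rw [hsm] at b
    have hne' : φ e₁ ≠ 0 ∨ φ e₂ ≠ 0 := by
      by_contra! hz
      apply ht₀
      have := eq_fn hφ.1
      rw [hz.1, hz.2] at this
      have hdz := hφd
      rw [this, fn_apply] at hdz
      simpa using hdz.symm
    rcases H.nr _ _ (w * w) a b hne' with h | h
    · exact hw0 (mul_self_eq_zero.mp h)
    · have : (w - 1) * (w - 1) = 0 := by linear_combination h + (1 - w) * h2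
      exact hw1 (sub_eq_zero.mp (mul_self_eq_zero.mp this))
  · exact hout _ _ ((hiff _ _).2 ⟨φ, hφ, rfl, rfl⟩)

/-- The elation configuration is impossible. -/
theorem elation_false (h2 : (2 : F) = 0) {Q : Subgroup (GL (Fin 3) F)} (H : Hyp Q) : False := by
  classical
  obtain ⟨g₁, hg₁, hd⟩ := H.spanning (LinearMap.proj 1) (fun h => by
    simpa [e₁] using LinearMap.congr_fun h e₁)
  set d := ap g₁ e₀ with hdd
  simp only [LinearMap.proj_apply] at hd
  obtain ⟨g₂, hg₂, he⟩ := H.spanning (d 1 • LinearMap.proj 2 - d 2 • LinearMap.proj 1) (fun h => by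
    have := LinearMap.congr_fun h e₂
    simp [e₂] at this
    exact hd this)
  set e := ap g₂ e₀ with hee
  simp at he
  have hdet : d 1 * e 2 - d 2 * e 1 ≠ 0 := by intro h; exact he (by linear_combination h)
  have hdet' : e 1 * d 2 - e 2 * d 1 ≠ 0 := by intro h; exact he (by linear_combination -h)
  obtain ⟨k, t₀, A, B, ht₀, hB, hk, hin, -⟩ := line_data h2 H hg₁ hdet
  obtain ⟨k', t₀', A', B', ht₀', hB', -, -, hout'⟩ := line_data h2 H hg₂ hdet'
  let p : Polynomial F := Polynomial.C (B' ^ 2 * t₀' * B) * Polynomial.X +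
    Polynomial.C (B' ^ 2 * t₀' * A - A' ^ 2 * B ^ 2) * Polynomial.X ^ 2 -
    Polynomial.C ((t₀ * t₀' - A' * A) ^ 2) * Polynomial.X ^ 4
  have hroot : ∀ μ : k, p.eval (μ : F) = 0 := by
    intro μ
    obtain ⟨φ, hφ, h1, h3⟩ := hin μ μ.2
    obtain ⟨ν, -, h4, h5⟩ := hout' φ hφ
    rw [h3] at h4
    rw [h1] at h5
    simp only [p, Polynomial.eval_sub, Polynomial.eval_add, Polynomial.eval_mul, Polynomial.eval_C,
      Polynomial.eval_X, Polynomial.eval_pow]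
    have e5 : (t₀ * t₀' * ((μ : F) * μ) - A' * (t₀' * (ν * ν))) ^ 2 = B' ^ 2 * (t₀' * (ν * ν)) * t₀' := by
      linear_combination (t₀' * (t₀ * t₀' * ((μ : F) * μ) - A' * (t₀' * (ν * ν))) + t₀' * t₀' * B' * ν) * h5
    rw [← h4] at e5
    linear_combination -e5 - (A' * B * (t₀ * t₀' - A' * A) * (μ : F) ^ 3) * h2
  have hp : p = 0 := by
    haveI := Fintype.ofFinite k
    refine Polynomial.eq_zero_of_natDegree_lt_card_of_eval_eq_zero p (f := fun μ : k => (μ : F))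
      Subtype.val_injective hroot ?_
    have hd4 : p.natDegree ≤ 4 := by simp only [p]; compute_degree!
    rw [← Nat.card_eq_fintype_card]
    omega
  have := congrArg (fun q => Polynomial.coeff q 1) hp
  simp only [p, Polynomial.coeff_sub, Polynomial.coeff_add, Polynomial.coeff_C_mul,
    Polynomial.coeff_X_pow, Polynomial.coeff_X_one, Polynomial.coeff_zero] at this
  norm_num [hB, hB', ht₀'] at this

end CfsgLib.SLThreeResidual.Even
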