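import Cfsg.Agent.Lib.SLThreeResidual.Basic
import Cfsg.Agent.Lib.SL2.Dickson.Classification

/-!
# Elation groups in characteristic two: the action on the line through two centres
-/

set_option autoImplicit false
set_option linter.unusedSectionVars false

namespace CfsgLib.SLThreeResidual.Even

open Matrix
open scoped MatrixGroups
open CfsgLib.ClassicalLinear (upS upS_coe)
open CfsgLib.SL2.Dickson

variable {F : Type*} [Field F]

/-- The matrix of an elation with centre `e₀`. -/
def elM (t u : F) : Matrix (Fin 3) (Fin 3) F := !![1, t, u; 0, 1, 0; 0, 0, 1]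

/-- Some element of `Q` has the matrix `M`. -/
def Has (Q : Subgroup (GL (Fin 3) F)) (M : Matrix (Fin 3) (Fin 3) F) : Prop :=
  ∃ g ∈ Q, (g : Matrix (Fin 3) (Fin 3) F) = M

theorem Has.mul {Q : Subgroup (GL (Fin 3) F)} {M N : Matrix (Fin 3) (Fin 3) F} (h : Has Q M) (h' : Has Q N) :
    Has Q (M * N) := by
  obtain ⟨g, hg, rfl⟩ := h
  obtain ⟨g', hg', rfl⟩ := h'
  exact ⟨g * g', mul_mem hg hg', rfl⟩

theorem Has.one (Q : Subgroup (GL (Fin 3) F)) : Has Q (1 : Matrix (Fin 3) (Fin 3) F) := ⟨1, one_mem _, rfl⟩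

theorem Has.elM_zero (Q : Subgroup (GL (Fin 3) F)) : Has Q (elM (0 : F) 0) := by
  have : elM (0 : F) 0 = 1 := by ext i j; fin_cases i <;> fin_cases j <;> simp [elM]
  rw [this]; exact Has.one Q

theorem elM_mul (t u t' u' : F) : elM t u * elM t' u' = elM (t + t') (u + u') := by
  ext i j
  fin_cases i <;> fin_cases j <;> simp [elM, Matrix.mul_apply, Fin.sum_univ_three, add_comm]

/-- A conjugate of an elation with centre `e₀` by an element fixing that centre and the line through `e₀`, `e₁`. -/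
theorem Has.conj {Q : Subgroup (GL (Fin 3) F)} {a a' x α β t u : F} (haa : a * a' = 1)
    (hg : Has Q !![a, x, α; 0, a', β; 0, 0, 1]) (he : Has Q (elM t u)) :
    Has Q (elM (a * a * t) (a * u - a * a * t * β)) := by
  obtain ⟨g, hg, hgM⟩ := hg
  obtain ⟨s, hs, hsM⟩ := he
  refine ⟨g * s * g⁻¹, mul_mem (mul_mem hg hs) (inv_mem hg), ?_⟩
  have key : (g : Matrix (Fin 3) (Fin 3) F) * (s : Matrix (Fin 3) (Fin 3) F) =
      elM (a * a * t) (a * u - a * a * t * β) * (g : Matrix (Fin 3) (Fin 3) F) := by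
    rw [hgM, hsM]
    ext i j
    fin_cases i <;> fin_cases j <;>
      simp [elM, Matrix.mul_apply, Fin.sum_univ_three] <;>
        first
        | ring1
        | linear_combination (-(a * t)) * haa
        | linear_combination (a * t) * haa
  rw [Units.val_mul, Units.val_mul, key, Matrix.mul_assoc, Units.mul_inv, Matrix.mul_one]

/-- The block of a matrix stabilising the last coordinate functional and the plane it kills. -/
def blockM (M : Matrix (Fin 2) (Fin 2) F) (α β : F) : Matrix (Fin 3) (Fin 3) F :=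
  !![M 0 0, M 0 1, α; M 1 0, M 1 1, β; 0, 0, 1]

variable [Finite F]

/-- The group induced on the line through `e₀` and `e₁`. -/
def lineGroup (Q : Subgroup (GL (Fin 3) F)) : Subgroup SL(2, F) where
  carrier := {M | ∃ α β : F, Has Q (blockM (M : Matrix (Fin 2) (Fin 2) F) α β)}
  one_mem' := ⟨0, 0, by
    have : blockM ((1 : SL(2, F)) : Matrix (Fin 2) (Fin 2) F) 0 0 = 1 := by
      ext i j; fin_cases i <;> fin_cases j <;> simp [blockM]
    rw [this]; exact Has.one Q⟩
  mul_mem' := by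
    rintro M N ⟨α, β, hM⟩ ⟨γ, δ, hN⟩
    set A : Matrix (Fin 2) (Fin 2) F := (M : Matrix (Fin 2) (Fin 2) F)
    set B : Matrix (Fin 2) (Fin 2) F := (N : Matrix (Fin 2) (Fin 2) F)
    refine ⟨A 0 0 * γ + A 0 1 * δ + α, A 1 0 * γ + A 1 1 * δ + β, ?_⟩
    have : blockM (A * B) (A 0 0 * γ + A 0 1 * δ + α) (A 1 0 * γ + A 1 1 * δ + β) =
        blockM A α β * blockM B γ δ := by
      ext i j
      fin_cases i <;> fin_cases j <;> simp [blockM, Matrix.mul_apply, Fin.sum_univ_three, Fin.sum_univ_two]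
    rw [Matrix.SpecialLinearGroup.coe_mul, this]
    exact hM.mul hN
  inv_mem' := by
    intro M hM
    have hpow : ∀ n : ℕ, ∃ α β : F, Has Q (blockM ((M ^ (n + 1) : SL(2, F)) : Matrix (Fin 2) (Fin 2) F) α β) := by
      intro n
      induction n with
      | zero => rw [pow_one]; exact hM
      | succ n ih =>
        obtain ⟨α, β, h⟩ := hM
        obtain ⟨γ, δ, h'⟩ := ih
        set A : Matrix (Fin 2) (Fin 2) F := (M : Matrix (Fin 2) (Fin 2) F)
        set B : Matrix (Fin 2) (Fin 2) F := ((M ^ (n + 1) : SL(2, F)) : Matrix (Fin 2) (Fin 2) F)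
        refine ⟨A 0 0 * γ + A 0 1 * δ + α, A 1 0 * γ + A 1 1 * δ + β, ?_⟩
        have : blockM (A * B) (A 0 0 * γ + A 0 1 * δ + α) (A 1 0 * γ + A 1 1 * δ + β) =
            blockM A α β * blockM B γ δ := by
          ext i j
          fin_cases i <;> fin_cases j <;> simp [blockM, Matrix.mul_apply, Fin.sum_univ_three, Fin.sum_univ_two]
        rw [pow_succ' M, Matrix.SpecialLinearGroup.coe_mul, this]
        exact h.mul h'
    obtain ⟨k, hk⟩ : ∃ k, orderOf M + orderOf M - 1 = k + 1 := by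
      have := orderOf_pos M
      exact ⟨orderOf M + orderOf M - 2, by omega⟩
    have : M⁻¹ = M ^ (k + 1) := by
      refine inv_eq_of_mul_eq_one_right ?_
      rw [← pow_succ', ← hk, show orderOf M + orderOf M - 1 + 1 = orderOf M + orderOf M by
        have := orderOf_pos M; omega, pow_add, pow_orderOf_eq_one, one_mul]
    rw [this]
    exact hpow k

theorem upS_mem_lineGroup_iff (h2 : (2 : F) = 0) {Q : Subgroup (GL (Fin 3) F)}
    (hsq : ∀ g ∈ Q, g ^ 4 = 1 → g * g = 1) (x : F) :
    upS x ∈ lineGroup Q ↔ x = 0 ∨ ∃ u, Has Q (elM x u) := by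
  constructor
  · rintro ⟨α, β, g, hg, hgM⟩
    have hb : blockM ((upS x : SL(2, F)) : Matrix (Fin 2) (Fin 2) F) α β = !![1, x, α; 0, 1, β; 0, 0, 1] := by
      ext i j; fin_cases i <;> fin_cases j <;> simp [blockM, upS_coe]
    rw [hb] at hgM
    have h4 : g ^ 4 = 1 := by
      refine Units.ext ?_
      rw [Units.val_pow_eq_pow_val, hgM, show (4 : ℕ) = 2 * 2 from rfl, pow_mul, pow_two, pow_two]
      ext i j
      fin_cases i <;> fin_cases j <;> simp [Matrix.mul_apply, Fin.sum_univ_three] <;>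
        first
        | linear_combination (2 * x) * h2
        | linear_combination (2 * α + 3 * x * β) * h2
        | linear_combination (2 * β) * h2
    have h := congrArg (fun y : GL (Fin 3) F => (y : Matrix (Fin 3) (Fin 3) F) 0 2) (hsq g hg h4)
    simp [hgM, Matrix.mul_apply, Fin.sum_univ_three] at h
    have hxb : x * β = 0 := by linear_combination h - α * h2
    rcases mul_eq_zero.mp hxb with hx | hβ
    · exact Or.inl hx
    · refine Or.inr ⟨α, g, hg, ?_⟩
      rw [hgM, hβ]
      rfl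
  · rintro (rfl | ⟨u, h⟩)
    · have : upS (0 : F) = 1 := CfsgLib.SL2.upS_zero
      rw [this]; exact one_mem _
    · refine ⟨u, 0, ?_⟩
      have hb : blockM ((upS x : SL(2, F)) : Matrix (Fin 2) (Fin 2) F) u 0 = elM x u := by
        ext i j; fin_cases i <;> fin_cases j <;> simp [blockM, elM, upS_coe]
      rw [hb]; exact h

theorem center_eq_bot (h2 : (2 : F) = 0) : Subgroup.center SL(2, F) = ⊥ := by
  rw [eq_bot_iff]
  intro z hz
  rcases (CfsgLib.SL2.mem_center_iff z).1 hz with rfl | rfl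
  · exact one_mem _
  · rw [Subgroup.mem_bot]
    have e : (-1 : F) = 1 := by linear_combination -h2
    apply Subtype.ext
    ext i j
    simp [Matrix.one_apply, apply_ite, e]

/-- An element of the multiplier group: it sends every translation value to one times its square, and the
remaining parameter is controlled. -/
theorem exists_multipliers (h2 : (2 : F) = 0) {Q : Subgroup (GL (Fin 3) F)}
    (hsq : ∀ g ∈ Q, g ^ 4 = 1 → g * g = 1) {κ w : F} (hκ : κ ≠ 0)
    (hlow : Has Q !![1, 0, 0; κ, 1, w; 0, 0, 1])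
    (h8 : 8 ≤ Nat.card {t : F // ∃ u, Has Q (elM t u)}) :
    ∃ R : Subgroup Fˣ, Nat.card R + 1 = Nat.card {t : F // ∃ u, Has Q (elM t u)} ∧
      ∀ a ∈ R, ∃ β : F, ∀ t u, Has Q (elM t u) →
        Has Q (elM ((a : F) * a * t) ((a : F) * u - (a : F) * a * t * β)) := by
  classical
  set G := lineGroup Q
  have hT : ∀ x, x ∈ transl G ↔ ∃ u, Has Q (elM x u) := fun x =>
    (upS_mem_lineGroup_iff h2 hsq x).trans ⟨fun h => h.elim (fun h => ⟨0, h ▸ Has.elM_zero Q⟩) id, Or.inr⟩
  have hcardT : Nat.card (transl G) = Nat.card {t : F // ∃ u, Has Q (elM t u)} :=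
    Nat.card_congr (Equiv.subtypeEquivRight hT)
  obtain ⟨x₀, hx₀⟩ : ∃ x₀ : transl G, x₀ ≠ 0 := by
    haveI : Nontrivial (transl G) := (Finite.one_lt_card_iff_nontrivial).mp (by omega)
    exact exists_ne 0
  have hlowG : lowS κ ∈ G := ⟨0, w, by
    have hb : blockM ((lowS κ : SL(2, F)) : Matrix (Fin 2) (Fin 2) F) 0 w = !![1, 0, 0; κ, 1, w; 0, 0, 1] := by
      ext i j; fin_cases i <;> fin_cases j <;> simp [blockM, lowS_coe]
    rw [hb]; exact hlow⟩
  have hZ : Subgroup.center SL(2, F) ≤ G := by rw [center_eq_bot h2]; exact bot_le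
  have he : Nat.card (Subgroup.center SL(2, F)) = 1 := by rw [center_eq_bot h2, Subgroup.card_bot]
  rcases structure_modular hZ x₀.2 (fun h => hx₀ (Subtype.ext h)) with
    h | ⟨h', -⟩ | ⟨h', -⟩ | ⟨h', -⟩ | ⟨k, hk2, hkq, hr, -⟩
  · have := (h ▸ Subgroup.mem_top _ : (⟨lowS κ, hlowG⟩ : G) ∈ borelPart G)
    rw [mem_borelPart] at this
    simp [lowS_coe] at this
    exact absurd this hκ
  · omega
  · omega
  · omega
  refine ⟨(borelChar G).range, ?_, ?_⟩
  · rw [he, one_mul] at hr
    rw [hr, ← hcardT]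
    rcases hkq with h | h
    · omega
    · -- `|T|` is even
      exfalso
      have h2t : 2 ∣ Nat.card (transl G) := by
        haveI : Fact (Nat.Prime 2) := ⟨Nat.prime_two⟩
        have : addOrderOf x₀ = 2 := addOrderOf_eq_prime
          (Subtype.ext (by rw [two_nsmul, AddSubgroup.coe_add, ← two_mul, h2, zero_mul]; rfl)) hx₀
        exact this ▸ addOrderOf_dvd_natCard _
      omega
  · rintro a ⟨y, rfl⟩
    obtain ⟨α, β, hM⟩ := ((y : G) : G).2
    set M : Matrix (Fin 2) (Fin 2) F := (((y : G) : SL(2, F)) : Matrix (Fin 2) (Fin 2) F) with hMdef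
    have h10 : M 1 0 = 0 := y.2
    have hdet : M 0 0 * M 1 1 = 1 := by
      have := ((y : G) : SL(2, F)).2
      rw [det_fin_two] at this
      rw [← hMdef] at this
      rw [h10, mul_zero, sub_zero] at this
      exact this
    refine ⟨β, fun t u h => ?_⟩
    rw [borelChar_val]
    refine Has.conj hdet ?_ h (x := M 0 1) (α := α)
    have : blockM M α β = !![M 0 0, M 0 1, α; 0, M 1 1, β; 0, 0, 1] := by
      rw [blockM, h10]
    rw [← this]; exact hM

/-- The elations with centre `e₀` in terms of a subfield: quadratic and linear part. -/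
theorem line_formula (h2 : (2 : F) = 0) {Q : Subgroup (GL (Fin 3) F)}
    (hsq : ∀ g ∈ Q, g ^ 4 = 1 → g * g = 1) (hinj : ∀ u, Has Q (elM 0 u) → u = 0) {κ w : F} (hκ : κ ≠ 0)
    (hlow : Has Q !![1, 0, 0; κ, 1, w; 0, 0, 1])
    (h8 : 8 ≤ Nat.card {p : F × F // Has Q (elM p.1 p.2)}) :
    ∃ (k : Subfield F) (t₀ A B : F), t₀ ≠ 0 ∧ 8 ≤ Nat.card k ∧
      (∀ μ ∈ k, Has Q (elM (t₀ * (μ * μ)) (A * (μ * μ) + B * μ))) ∧
      ∀ t u, Has Q (elM t u) → ∃ μ ∈ k, t = t₀ * (μ * μ) ∧ u = A * (μ * μ) + B * μ := by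
  classical
  have neg_eq : ∀ x : F, -x = x := fun x => by linear_combination (-x) * h2
  have huniq : ∀ t u u', Has Q (elM t u) → Has Q (elM t u') → u = u' := by
    intro t u u' h h'
    have h0 := h.mul h'
    rw [elM_mul, show t + t = 0 by linear_combination t * h2] at h0
    have := hinj _ h0
    linear_combination this - u' * h2
  have hcard : Nat.card {t : F // ∃ u, Has Q (elM t u)} = Nat.card {p : F × F // Has Q (elM p.1 p.2)} := by
    refine (Nat.card_eq_of_bijective (fun p : {p : F × F // Has Q (elM p.1 p.2)} =>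
      (⟨p.1.1, p.1.2, p.2⟩ : {t : F // ∃ u, Has Q (elM t u)})) ⟨?_, ?_⟩).symm
    · rintro ⟨⟨t, u⟩, hp⟩ ⟨⟨t', u'⟩, hp'⟩ e
      simp at e
      subst e
      have := huniq t u u' hp hp'
      subst this
      rfl
    · rintro ⟨t, u, h⟩
      exact ⟨⟨(t, u), h⟩, rfl⟩
  obtain ⟨R, hRcard, hR⟩ := exists_multipliers h2 hsq hκ hlow (hcard ▸ h8)
  choose β hβ using hR
  set T : Set F := {t | ∃ u, Has Q (elM t u)} with hTdef
  choose! f hf using fun t (ht : t ∈ T) => ht
  have hTcard : Nat.card T = Nat.card R + 1 := hRcard.symm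
  have hT0 : (0 : F) ∈ T := ⟨0, Has.elM_zero Q⟩
  have hTadd : ∀ x y, x ∈ T → y ∈ T → x + y ∈ T := fun x y ⟨u, hu⟩ ⟨v, hv⟩ =>
    ⟨u + v, by rw [← elM_mul]; exact hu.mul hv⟩
  obtain ⟨t₀, ht₀T, ht₀⟩ : ∃ t ∈ T, t ≠ 0 := by
    haveI : Nontrivial T := (Finite.one_lt_card_iff_nontrivial).mp (by omega)
    obtain ⟨⟨t, ht⟩, hne⟩ := exists_ne (⟨0, hT0⟩ : T)
    exact ⟨t, ht, fun h => hne (Subtype.ext h)⟩
  have hmulT : ∀ a : R, ∀ t, t ∈ T → (a : Fˣ) * ((a : Fˣ) : F) * t ∈ T := fun a t ht =>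
    ⟨_, hβ a a.2 t (f t) (hf t ht)⟩
  -- every non-zero value is a square multiple of `t₀`
  have hsurj : ∀ t ∈ T, t ≠ 0 → ∃ a : R, t = (a : Fˣ) * ((a : Fˣ) : F) * t₀ := by
    let φ : R → {t : T // (t : F) ≠ 0} := fun a => ⟨⟨_, hmulT a t₀ ht₀T⟩,
      mul_ne_zero (mul_ne_zero (Units.ne_zero _) (Units.ne_zero _)) ht₀⟩
    have hφ : Function.Injective φ := by
      intro a b e
      have e' : ((a : Fˣ) : F) * (a : Fˣ) * t₀ = ((b : Fˣ) : F) * (b : Fˣ) * t₀ :=
        congrArg (fun z : {t : T // (t : F) ≠ 0} => ((z : T) : F)) e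
      have e'' := mul_right_cancel₀ ht₀ e'
      have : (((a : Fˣ) : F) - (b : Fˣ)) * (((a : Fˣ) : F) - (b : Fˣ)) = 0 := by
        linear_combination e'' + (((b : Fˣ) : F) * (b : Fˣ) - ((a : Fˣ) : F) * (b : Fˣ)) * h2
      exact Subtype.ext (Units.ext (sub_eq_zero.mp (mul_self_eq_zero.mp this)))
    have hc : Nat.card R = Nat.card {t : T // (t : F) ≠ 0} := by
      have e : Nat.card {t : T // (t : F) = 0} = 1 := by
        rw [Nat.card_eq_one_iff_unique]
        exact ⟨⟨fun x y => Subtype.ext (Subtype.ext (x.2.trans y.2.symm))⟩, ⟨⟨⟨0, hT0⟩, rfl⟩⟩⟩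
      have := Nat.card_congr (Equiv.sumCompl fun t : T => (t : F) = 0)
      rw [Nat.card_sum, e, hTcard] at this
      simp only [ne_eq] at this ⊢
      omega
    have hb := ((Nat.bijective_iff_injective_and_card φ).2 ⟨hφ, hc⟩).2
    intro t ht hne
    obtain ⟨a, ha⟩ := hb ⟨⟨t, ht⟩, hne⟩
    exact ⟨a, (congrArg (fun z : {t : T // (t : F) ≠ 0} => ((z : T) : F)) ha).symm⟩
  let k : Subfield F :=
    { carrier := {x | x * t₀ ∈ T}
      mul_mem' := by
        intro x y hx hy
        show x * y * t₀ ∈ T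
        by_cases hx0 : x = 0
        · rw [hx0, zero_mul, zero_mul]; exact hT0
        obtain ⟨a, ha⟩ := hsurj _ hx (mul_ne_zero hx0 ht₀)
        rw [mul_right_cancel₀ ht₀ ha, mul_assoc]
        exact hmulT a _ hy
      one_mem' := by show 1 * t₀ ∈ T; rw [one_mul]; exact ht₀T
      add_mem' := fun {x y} hx hy => by show (x + y) * t₀ ∈ T; rw [add_mul]; exact hTadd _ _ hx hy
      zero_mem' := by show 0 * t₀ ∈ T; rw [zero_mul]; exact hT0
      neg_mem' := fun {x} hx => by show -x * t₀ ∈ T; rw [neg_eq]; exact hx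
      inv_mem' := fun x hx => by
        show x⁻¹ * t₀ ∈ T
        by_cases hx0 : x = 0
        · rw [hx0, _root_.inv_zero, zero_mul]; exact hT0
        have hpow : ∀ n : ℕ, x ^ n * t₀ ∈ T := by
          intro n
          induction n with
          | zero => rw [pow_zero, one_mul]; exact ht₀T
          | succ n ih =>
            obtain ⟨a, ha⟩ := hsurj _ hx (mul_ne_zero hx0 ht₀)
            have h' := hmulT a _ ih
            rw [← mul_right_cancel₀ ht₀ ha] at h'
            rw [pow_succ', mul_assoc]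
            exact h'
        have hu : x⁻¹ = x ^ (orderOf (Units.mk0 x hx0) - 1) := by
          refine inv_eq_of_mul_eq_one_right ?_
          rw [← pow_succ', Nat.sub_add_cancel (orderOf_pos _)]
          have h' := congrArg Units.val (pow_orderOf_eq_one (Units.mk0 x hx0))
          rw [Units.val_pow_eq_pow_val] at h'
          exact h'
        rw [hu]
        exact hpow _ }
  have hk : ∀ x, x ∈ k ↔ x * t₀ ∈ T := fun _ => Iff.rfl
  have hkcard : Nat.card k = Nat.card T := by
    refine Nat.card_congr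
      { toFun := fun x => ⟨x.1 * t₀, x.2⟩
        invFun := fun t => ⟨t.1 * t₀⁻¹, by rw [hk, mul_assoc, inv_mul_cancel₀ ht₀, mul_one]; exact t.2⟩
        left_inv := fun x => Subtype.ext (by simp [mul_assoc, mul_inv_cancel₀ ht₀])
        right_inv := fun t => Subtype.ext (by simp [mul_assoc, inv_mul_cancel₀ ht₀]) }
  -- squaring is onto `k`
  have hsqk : ∀ x ∈ k, ∃ y ∈ k, x = y * y := by
    let ψ : k → k := fun y => y * y
    have hψ : Function.Injective ψ := by
      intro a b e
      have e' : (a : F) * a = (b : F) * b := congrArg Subtype.val e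
      have : ((a : F) - b) * ((a : F) - b) = 0 := by
        linear_combination e' + ((b : F) * b - (a : F) * b) * h2
      exact Subtype.ext (sub_eq_zero.mp (mul_self_eq_zero.mp this))
    intro x hx
    obtain ⟨y, hy⟩ := Finite.injective_iff_surjective.mp hψ ⟨x, hx⟩
    exact ⟨y, y.2, (congrArg Subtype.val hy).symm⟩
  set g : F → F := fun μ => f (μ * μ * t₀) with hgdef
  have hmem : ∀ μ ∈ k, μ * μ * t₀ ∈ T := fun μ hμ => (hk _).mp (k.mul_mem hμ hμ)
  -- semilinearity
  have hrel : ∀ lam ∈ k, lam ≠ 0 → ∀ μ ∈ k,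
      g (lam * μ) = lam * g μ + μ * μ * (g lam - lam * g 1) := by
    intro lam hlam hlam0 μ hμ
    obtain ⟨a, ha⟩ := hsurj _ (hmem lam hlam) (mul_ne_zero (mul_ne_zero hlam0 hlam0) ht₀)
    have ha' : ((a : Fˣ) : F) = lam := by
      have e := mul_right_cancel₀ ht₀ ha
      have : (lam - (a : Fˣ)) * (lam - (a : Fˣ)) = 0 := by
        linear_combination e + (((a : Fˣ) : F) * (a : Fˣ) - lam * (a : Fˣ)) * h2
      exact (sub_eq_zero.mp (mul_self_eq_zero.mp this)).symm
    set b := β a a.2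
    have h1 : ∀ ν ∈ k, g (lam * ν) = lam * g ν - lam * lam * (ν * ν * t₀) * b := by
      intro ν hν
      have h := hβ a a.2 _ _ (hf _ (hmem ν hν))
      rw [ha'] at h
      refine huniq (lam * ν * (lam * ν) * t₀) _ _ (hf _ (hmem _ (k.mul_mem hlam hν))) ?_
      rw [show lam * ν * (lam * ν) * t₀ = lam * lam * (ν * ν * t₀) by ring]
      exact h
    have e1 := h1 1 k.one_mem
    rw [mul_one] at e1
    rw [h1 μ hμ]
    linear_combination (-(μ * μ)) * e1
  obtain ⟨w, hw, hw0, hw1⟩ : ∃ w ∈ k, w ≠ 0 ∧ w ≠ 1 := by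
    by_contra! hcon
    have hle : Nat.card k ≤ 2 := by
      have : Function.Injective fun x : k => decide ((x : F) = 0) := by
        intro x y e
        simp only [decide_eq_decide] at e
        by_cases hx : (x : F) = 0
        · exact Subtype.ext (hx.trans (e.mp hx).symm)
        · exact Subtype.ext ((hcon _ x.2 hx).trans (hcon _ y.2 (mt e.mpr hx)).symm)
      simpa using Nat.card_le_card_of_injective _ this
    omega
  have hww : w - w * w ≠ 0 := by
    intro h
    have : w * (1 - w) = 0 := by linear_combination h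
    rcases mul_eq_zero.mp this with h' | h'
    · exact hw0 h'
    · exact hw1 (sub_eq_zero.mp h').symm
  set A := (-g w + g 1 * w) / (w - w * w) with hA
  set B := (g w - g 1 * (w * w)) / (w - w * w) with hB
  have hg : ∀ μ ∈ k, g μ = A * (μ * μ) + B * μ := by
    intro μ hμ
    by_cases hμ0 : μ = 0
    · have : g 0 = 0 := by
        refine huniq 0 _ _ ?_ (Has.elM_zero Q)
        have := hf _ (hmem 0 k.zero_mem)
        simpa [hgdef] using this
      rw [hμ0, this]; ring
    have e1 := hrel w hw hw0 μ hμ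
    have e2 := hrel μ hμ hμ0 w hw
    rw [mul_comm μ w] at e2
    rw [hA, hB]
    field_simp
    linear_combination e2 - e1
  refine ⟨k, t₀, A, B, ht₀, by omega, fun μ hμ => ?_, fun t u h => ?_⟩
  · have := hf _ (hmem μ hμ)
    rw [show f (μ * μ * t₀) = g μ from rfl, hg μ hμ, mul_comm _ t₀] at this
    exact this
  · obtain ⟨μ, hμ, hsqμ⟩ := hsqk (t * t₀⁻¹) (by
      rw [hk, mul_assoc, inv_mul_cancel₀ ht₀, mul_one]; exact ⟨u, h⟩)
    have ht : t = μ * μ * t₀ := by rw [← hsqμ, mul_assoc, inv_mul_cancel₀ ht₀, mul_one]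
    refine ⟨μ, hμ, by rw [ht]; ring, ?_⟩
    rw [← hg μ hμ]
    refine huniq t u _ h ?_
    rw [ht]
    exact hf _ (hmem μ hμ)

end CfsgLib.SLThreeResidual.Even
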